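import Cfsg.Agent.LyR.Odd
import Cfsg.Agent.LY.M5
import Cfsg.Agent.BS.RankTwo

/-!
# The centralizer of an involution in a simple group with Sylow 2-subgroup of type `U₃(4)`
-/

set_option autoImplicit false
set_option linter.unusedSectionVars false

namespace Cfsg.Agent.LyR

open Cfsg Cfsg.Agent.GT Cfsg.Agent.BS Subgroup Function

universe u

/-- Groups with an elementary abelian Sylow subgroup of order 16 and automizer of order 5 have
a proper normal subgroup of odd index. -/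
def E16 : Prop := ∀ (H : Type u) [Group H] [Finite H] (φ : T0 →* H), (∀ s, φ s = 1 ↔ s * s = 1) →
  IsPiHallOf {2} φ.range ⊤ → ∀ h : H, (∀ s, h * φ s * h⁻¹ = φ ((κ ^ 3) s)) →
  (∀ n ∈ N[φ.range], ∃ k : ℕ, ∀ s, n * φ s * n⁻¹ = φ ((κ ^ (3 * k)) s)) →
  ∃ K : Subgroup H, K.Normal ∧ φ.range ≤ K ∧ K ≠ ⊤

section
variable {X : Type u} {Y : Type u} [Group X] [Finite X] [Group Y] [Finite Y]

theorem syl_map {P : Subgroup X} (f : X →* Y) (hf : Surjective f) (h : IsPiHallOf {2} P ⊤) :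
    IsPiHallOf {2} (P.map f) ⊤ := by
  have : Fact (Nat.Prime 2) := ⟨Nat.prime_two⟩
  obtain ⟨Q, rfl⟩ := exists_sylow_of_syl_top Nat.prime_two h
  exact syl_top_of_sylow Nat.prime_two (Q.mapSurjective hf)

theorem lift_norm {P : Subgroup X} (f : X →* Y) (hf : Surjective f) (h : IsPiHallOf {2} P ⊤)
    {n : Y} (hn : n ∈ N[P.map f]) : ∃ m ∈ N[P], f m = n := by
  obtain ⟨x, rfl⟩ := hf n
  obtain ⟨k, hk, m, hm, rfl⟩ := frattini_arg_exists (K := (P.map f).comap f) Nat.prime_two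
    (h.of_le (le_comap_map _ _) le_top) (x := x) (mem_normalizer_iff.2 fun y => by
      simpa using mem_normalizer_iff.1 hn (f y))
  obtain ⟨p, hp, e⟩ := hk
  exact ⟨p * m, mul_mem (le_normalizer hp) hm, by rw [map_mul, map_mul, e]⟩

theorem core_quot : piCore {2}ᶜ (X ⧸ piCore {2}ᶜ X) = ⊥ := by
  apply comap_injective (QuotientGroup.mk'_surjective (piCore {2}ᶜ X))
  rw [comap_piCore_quotient, MonoidHom.comap_bot, QuotientGroup.ker_mk', ← piCoreOf_top,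
    coreMod_eq_piCoreOf le_top (self_le_norm_piCoreOf _ _) (piCoreOf_isPi _ _)]

theorem odd_core : Odd (Nat.card (piCore {2}ᶜ X)) :=
  piNat_two_compl.1 (piCoreOf_top (π := {2}ᶜ) (G := X) ▸ piCoreOf_isPi {2}ᶜ ⊤)

theorem conj_pow_κ {φ : T0 →* X} {k : X} {i : ℕ} (h : ∀ s, k * φ s * k⁻¹ = φ ((κ ^ i) s)) (j : ℕ)
    (s : T0) : k ^ j * φ s * (k ^ j)⁻¹ = φ ((κ ^ (i * j)) s) := by
  induction j with
  | zero => simp
  | succ j ih =>
    rw [mul_add, mul_one, add_comm (i * j), pow_add κ, MulAut.mul_apply, ← h, ← ih, pow_succ']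
    group

theorem κ_mod (i : ℕ) : κ ^ i = κ ^ (i % 15) := pow_eq_pow_mod i κ_15

theorem exists_three {φ : T0 →* X} {k : X} {i : ℕ}
    (h : ∀ s, k * φ s * k⁻¹ = φ ((κ ^ (3 * i)) s)) (hi : ¬ 5 ∣ i) :
    ∃ j : ℕ, ∀ s, k ^ j * φ s * (k ^ j)⁻¹ = φ ((κ ^ 3) s) := by
  obtain ⟨j, -, hj⟩ := (by decide : ∀ r < 5, r ≠ 0 → ∃ j < 5, r * j % 5 = 1) (i % 5)
    (Nat.mod_lt _ (by norm_num)) (by omega)
  refine ⟨j, fun s => ?_⟩
  rw [conj_pow_κ h, κ_mod, mul_assoc, show 15 = 3 * 5 from rfl, Nat.mul_mod_mul_left,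
    ← Nat.mod_mul_mod, hj]

end

theorem e16_ind (E : E16.{u}) (n : ℕ) : ∀ (H : Type u) [Group H] [Finite H], Nat.card H = n →
    ∀ φ : T0 →* H, (∀ s, φ s = 1 ↔ s * s = 1) → IsPiHallOf {2} φ.range ⊤ →
    (∀ n ∈ N[φ.range], ∃ k : ℕ, ∀ s, n * φ s * n⁻¹ = φ ((κ ^ (3 * k)) s)) →
    ∀ g s, ∃ s', (φ s')⁻¹ * (g * φ s * g⁻¹) ∈ piCore {2}ᶜ H := by
  induction n using Nat.strong_induction_on with
  | _ n ih =>
  intro H _ _ hn φ hk hV hN g s
  by_cases hc : ∀ n ∈ N[φ.range], ∀ s, n * φ s * n⁻¹ = φ s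
  · have B := Burnside_normal_complement Nat.prime_two hV fun n hn => mem_centralizer_iff.2 (by
      rintro _ ⟨s, rfl⟩
      exact (mul_inv_eq_iff_eq_mul.1 (hc n hn.2 s)).symm)
    obtain ⟨_, ⟨s', rfl⟩, a, ha, e⟩ := B.exists_mul' (mem_top (g * φ s * g⁻¹))
    exact ⟨s', by rwa [e, inv_mul_cancel_left, ← piCoreOf_top]⟩
  push Not at hc
  obtain ⟨m, hm, s0, h0⟩ := hc
  obtain ⟨i, hi⟩ := hN m hm
  obtain ⟨j, hj⟩ := exists_three hi (by
    rintro ⟨c, rfl⟩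
    exact h0 (by rw [hi, ← mul_assoc, pow_mul, show κ ^ (3 * 5) = 1 from κ_15, one_pow]; rfl))
  obtain ⟨K, Kn, hK, hK'⟩ := E H φ hk hV _ hj hN
  let φ' : T0 →* K := φ.codRestrict K fun s => hK ⟨s, rfl⟩
  have r : φ'.range = φ.range.subgroupOf K := by
    ext x
    exact ⟨fun ⟨s, e⟩ => ⟨s, congrArg Subtype.val e⟩, fun ⟨s, e⟩ => ⟨s, Subtype.ext e⟩⟩
  have I := ih _ (by rw [← hn, ← card_top (G := H)]; exact card_lt_of_lt (lt_top_iff_ne_top.2 hK')) K rfl φ'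
    (fun s => (Subtype.ext_iff).trans (hk s))
    (by rw [r, isPiHallOf_top_iff, ← isPiHallOf_iff_subgroupOf hK]; exact hV.of_le hK le_top)
    (fun n hn => by
      obtain ⟨k, e⟩ := hN n (mem_normalizer_of_conj_le (conj_le_iff_forall.2 (by
        rintro _ ⟨s, rfl⟩
        obtain ⟨s', e⟩ := (mem_normalizer_iff.1 hn (φ' s)).1 ⟨s, rfl⟩
        exact ⟨s', congrArg Subtype.val e⟩)))
      exact ⟨k, fun s => Subtype.ext (e s)⟩)
  obtain ⟨k, hk1, m, hm, rfl⟩ := frattini_arg_exists Nat.prime_two (hV.of_le hK le_top) (x := g)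
    (by rw [normalizer_eq_top]; trivial)
  obtain ⟨l, hl⟩ := hN m hm
  obtain ⟨s', e⟩ := I ⟨k, hk1⟩ ((κ ^ (3 * l)) s)
  refine ⟨s', ?_⟩
  rw [← piCoreOf_top]
  refine piCoreOf_le_of_normal (K := K) le_top (by rw [normalizer_eq_top]) ⟨_, e, ?_⟩
  change (φ s')⁻¹ * (k * φ _ * k⁻¹) = _
  rw [← hl]; group

variable {X : Type u} [Group X] [Finite X]

/-- The normalizer of the Sylow subgroup acts through the element of order 5. -/
structure Loc (φ : T0 →* X) (K : Subgroup X) : Prop where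
  inj : Injective φ
  syl : IsPiHallOf {2} φ.range ⊤
  odd : Odd (Nat.card K)
  act : ∀ k ∈ K, ∃ j : ℕ, ∀ s, k * φ s * k⁻¹ = φ ((κ ^ (3 * j)) s)
  dec : ∀ n ∈ N[φ.range], ∃ x, ∃ k ∈ K, n = φ x * k

/-- The centre of the model. -/
def Vs : Subgroup T0 where
  carrier := {t | t * t = 1}
  one_mem' := mul_one 1
  mul_mem' := fun ha hb => (vv _ ha _ hb).1
  inv_mem' := fun {a} ha => by rwa [inv_eq_of_mul_eq_one_right ha]

theorem κ_three {t : T0} (ht : t * t = 1) (j : ℕ) : (κ ^ (3 * j)) t = t := by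
  induction j with
  | zero => rfl
  | succ j ih => rw [mul_add, pow_add, MulAut.mul_apply, mul_one, cube_of_rot κ_F t ht, ih]

namespace Loc
variable {φ : T0 →* X} {K : Subgroup X}

theorem fix (h : Loc φ K) {n : X} (hn : n ∈ N[φ.range]) {t : T0} (ht : t * t = 1) :
    n * φ t * n⁻¹ = φ t := by
  obtain ⟨x, k, hk, rfl⟩ := h.dec n hn
  obtain ⟨j, hj⟩ := h.act k hk
  calc φ x * k * φ t * (φ x * k)⁻¹ = φ x * (k * φ t * k⁻¹) * (φ x)⁻¹ := by group
    _ = φ t := by rw [hj, κ_three ht, ← map_mul, cent t ht, map_mul, mul_inv_cancel_right]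

theorem iso (h : Loc φ K) {t : T0} (ht : t * t = 1) (g : X) :
    φ t * (g * φ t * g⁻¹) ∈ piCore {2}ᶜ X := by
  have h2 : φ t * φ t = 1 := by rw [← map_mul, ht, map_one]
  have cT : ∀ t : T0, t * t = 1 → φ t ∈ C[φ.range] := fun t ht => mem_centralizer_iff.2 (by
    rintro _ ⟨s, rfl⟩; rw [← map_mul, cent t ht, map_mul])
  refine zstar h2 (fun g hg => ?_) g
  obtain ⟨c, hc1, hc2⟩ := syl_exists_conj_le Nat.prime_two (h.syl.of_le (K := C1[φ t])
    (fun x hx => mem_cent1.2 (mem_centralizer_iff.1 (cT t ht) x hx)) le_top)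
    (Q := zpowers (g * φ t * g⁻¹)) (PG.isPGroup_zpowers_of_pow_eq_one (k := 1) (by
      rw [pow_one, pow_two, conj_invol h2])) (zpowers_le.2 (mem_cent1.2 hg.symm))
  obtain ⟨y, hy⟩ := hc2 (conj_mem_conj.2 (mem_zpowers _))
  have e : c * g * φ t * (c * g)⁻¹ = φ y := by rw [hy]; group
  have y2 : y * y = 1 := h.inj (by rw [map_mul, ← e, conj_invol h2, map_one])
  obtain ⟨n, hn, d, hd, e'⟩ := syl_fusion_cent Nat.prime_two h.syl (mem_top (c * g))
    (Y := {φ t}) (by rintro _ rfl; exact cT t ht) (by rintro _ rfl; exact e ▸ cT y y2)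
  calc g * φ t * g⁻¹ = c⁻¹ * (n * (d * φ t * d⁻¹) * n⁻¹) * c := by
        rw [show g = c⁻¹ * (n * d) by rw [← e', inv_mul_cancel_left]]; group
    _ = φ t := by
      rw [mem_cent1.1 hd.2, mul_inv_cancel_right, h.fix hn.2 ht, mul_assoc, ← mem_cent1.1 hc1]
      group

theorem map {Y : Type u} [Group Y] [Finite Y] (h : Loc φ K) (f : X →* Y) (hf : Surjective f)
    (ho : Odd (Nat.card f.ker)) : Loc (f.comp φ) (K.map f) := by
  refine ⟨(injective_iff_map_eq_one _).2 fun s hs => ?_, ?_, h.odd.of_dvd_nat (card_map_dvd _ _),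
    ?_, fun n hn => ?_⟩
  · have h1 := ho.of_dvd_nat (f.ker.orderOf_dvd_natCard (x := φ s) hs)
    rw [orderOf_injective φ h.inj] at h1
    rw [← orderOf_eq_one_iff]
    exact Nat.eq_one_of_dvd_coprimes ((Nat.coprime_two_right.2 h1).pow_right 6) dvd_rfl
      (by have := orderOf_dvd_natCard s; rwa [card_T0] at this)
  · rw [MonoidHom.range_comp]; exact syl_map f hf h.syl
  · rintro _ ⟨k, hk, rfl⟩
    obtain ⟨j, hj⟩ := h.act k hk
    exact ⟨j, fun s => by simp [← hj]⟩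
  · rw [MonoidHom.range_comp] at hn
    obtain ⟨m, hm, rfl⟩ := lift_norm f hf h.syl hn
    obtain ⟨x, k, hk, rfl⟩ := h.dec m hm
    exact ⟨x, f k, mem_map_of_mem f hk, by simp⟩

theorem normal (E : E16.{u}) (h : Loc φ K) (hO : piCore {2}ᶜ X = ⊥) (g : X) : g ∈ N[φ.range] := by
  have hc : ∀ t : T0, t * t = 1 → ∀ g, g * φ t * g⁻¹ = φ t := fun t ht g => by
    have := h.iso ht g
    rw [hO, mem_bot, mul_eq_one_iff_inv_eq, ← map_inv, inv_eq_of_mul_eq_one_right ht] at this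
    exact this.symm
  have hn : (Vs.map φ).Normal := ⟨by rintro _ ⟨t, ht, rfl⟩ g; rw [hc t ht]; exact ⟨t, ht, rfl⟩⟩
  let q := QuotientGroup.mk' (Vs.map φ)
  have hq := QuotientGroup.mk'_surjective (Vs.map φ)
  have hk : ∀ s, q.comp φ s = 1 ↔ s * s = 1 := fun s => (QuotientGroup.eq_one_iff _).trans
    ⟨fun ⟨t, ht, e⟩ => h.inj e ▸ ht, fun hs => ⟨s, hs, rfl⟩⟩
  have hW : piCore {2}ᶜ (X ⧸ Vs.map φ) = ⊥ := by
    set W := (piCore {2}ᶜ (X ⧸ Vs.map φ)).comap q with hWdef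
    have hVW : Vs.map φ ≤ W := fun x hx => by
      rw [hWdef, mem_comap, show q x = 1 from (QuotientGroup.eq_one_iff x).2 hx]; exact one_mem _
    have s1 : IsPiHallOf {2} (Vs.map φ) W := isPiHallOf_mk hVW (h.syl.isPi.of_le (map_le_range _ _))
      (by rw [hWdef, comap_piCore_quotient]; exact coreMod_relIndex le_top (by rw [normalizer_eq_top]))
    have B := Burnside_normal_complement Nat.prime_two s1 fun n _ => mem_centralizer_iff.2 (by
      rintro _ ⟨t, ht, rfl⟩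
      exact (mul_inv_eq_iff_eq_mul.1 (hc t ht n)).symm)
    have e := B.sup_eq
    rw [piCoreOf_eq_bot_of_normal le_top (by rw [normalizer_eq_top]) (by rw [piCoreOf_top, hO]),
      bot_sup_eq] at e
    apply comap_injective hq
    rw [MonoidHom.comap_bot, QuotientGroup.ker_mk']
    exact e.symm
  refine mem_normalizer_of_conj_le (conj_le_iff_forall.2 ?_)
  rintro _ ⟨s, rfl⟩
  obtain ⟨s', e⟩ := e16_ind E _ _ rfl (q.comp φ) hk
    (by rw [MonoidHom.range_comp]; exact syl_map q hq h.syl) (fun n hn => by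
      rw [MonoidHom.range_comp] at hn
      obtain ⟨m, hm, rfl⟩ := lift_norm q hq h.syl hn
      obtain ⟨x, k, hk', rfl⟩ := h.dec m hm
      obtain ⟨j, hj⟩ := h.act k hk'
      refine ⟨j, fun s => ?_⟩
      have : q.comp φ (((κ ^ (3 * j)) s)⁻¹ * (x * (κ ^ (3 * j)) s * x⁻¹)) = 1 := (hk _).2
        ((cl_eq_zero _).1 (by
          rw [cl_mul, cl_mul, cl_mul, cl_inv, cl_inv]
          linear_combination (cl x + cl ((κ ^ (3 * j)) s)) * two0))
      rw [map_mul, map_inv, inv_mul_eq_one] at this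
      rw [this]
      simp [← hj, mul_assoc]) (q g) s
  rw [hW, mem_bot, inv_mul_eq_one] at e
  obtain ⟨t, -, e⟩ := QuotientGroup.eq.1 (show q (φ s') = q (g * φ s * g⁻¹) by simpa using e)
  exact ⟨s' * t, by rw [map_mul, e, mul_inv_cancel_left]⟩

theorem faith (E : E16.{u}) (h : Loc φ K) (hO : piCore {2}ᶜ X = ⊥) {k : X} (hk : k ∈ K)
    (hc : ∀ s, k * φ s * k⁻¹ = φ s) : k = 1 := by
  have : K ⊓ C[φ.range] ≤ piCoreOf {2}ᶜ ⊤ := le_piCoreOf le_top (fun g _ => by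
    obtain ⟨x, l, hl, rfl⟩ := h.dec g (h.normal E hO g)
    refine mul_mem (cent_le_norm _ (mem_centralizer_iff.2 fun y hy =>
      (mem_centralizer_iff.1 hy.2 _ ⟨x, rfl⟩).symm)) (inf_normalizer_le_normalizer_inf ⟨le_normalizer hl, ?_⟩)
    exact norm_le_norm_cent _ (h.normal E hO l)) (piNat_two_compl.2 (h.odd.of_dvd_nat (card_dvd_of_le inf_le_left)))
  rw [piCoreOf_top, hO, le_bot_iff, eq_bot_iff_forall] at this
  exact this k ⟨hk, mem_centralizer_iff.2 (by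
    rintro _ ⟨s, rfl⟩; exact (mul_inv_eq_iff_eq_mul.1 (hc s)).symm)⟩

theorem main (E : E16.{u}) (h : Loc φ K) :
    (∃ π : X →* T0, Odd (Nat.card π.ker) ∧ ∀ s, π (φ s) = s) ∨
    ∃ (k : X) (π : X →* LY.M5), Surjective π ∧ Odd (Nat.card π.ker) ∧
      (∀ s, π (φ s) = SemidirectProduct.inl s) ∧ π k = LY.h5 ∧ Odd (orderOf k) ∧
      ∀ s, k * φ s * k⁻¹ = φ ((κ ^ 3) s) := by
  let q := QuotientGroup.mk' (piCore {2}ᶜ X)
  have hq := QuotientGroup.mk'_surjective (piCore {2}ᶜ X)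
  have ho : Odd (Nat.card q.ker) := by rw [QuotientGroup.ker_mk']; exact odd_core
  have h' := h.map q hq ho
  have ker : ∀ {M : Type} [Group M] (e : M ≃* X ⧸ piCore {2}ᶜ X),
      Odd (Nat.card (e.symm.toMonoidHom.comp q).ker) := fun e => by
    rwa [MonoidHom.ker_comp_of_injective _ _ e.symm.injective]
  by_cases hc : ∀ k ∈ K, ∀ s, k * φ s * k⁻¹ = φ s
  · have hs : Surjective (q.comp φ) := fun g => by
      obtain ⟨x, _, ⟨k, hk, rfl⟩, e⟩ := h'.dec g (h'.normal E core_quot g)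
      rw [h'.faith E core_quot (mem_map_of_mem q hk) (fun s => by
        rw [MonoidHom.comp_apply, ← map_mul, ← map_inv, ← map_mul, hc k hk]), mul_one] at e
      exact ⟨x, e.symm⟩
    let e := MulEquiv.ofBijective _ ⟨h'.inj, hs⟩
    exact Or.inl ⟨e.symm.toMonoidHom.comp q, ker e, fun s => e.symm_apply_eq.2 rfl⟩
  push Not at hc
  obtain ⟨m, hm, s0, h0⟩ := hc
  obtain ⟨i, hi⟩ := h.act m hm
  obtain ⟨j, hj⟩ := exists_three hi (by
    rintro ⟨c, rfl⟩
    exact h0 (by rw [hi, ← mul_assoc, pow_mul, show κ ^ (3 * 5) = 1 from κ_15, one_pow]; rfl))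
  have hk := pow_mem hm j
  generalize m ^ j = k at hj hk
  have hj' : ∀ s, q k * q.comp φ s * (q k)⁻¹ = q.comp φ ((κ ^ 3) s) := fun s => by simp [← hj]
  have k5 : q k ^ 5 = 1 := h'.faith E core_quot (pow_mem (mem_map_of_mem q hk) 5) fun s => by
    rw [conj_pow_κ hj', show κ ^ (3 * 5) = 1 from κ_15]; rfl
  let ρ : Multiplicative (Fin 5) →* X ⧸ piCore {2}ᶜ X :=
    MonoidHom.mk' (fun a => q k ^ a.toAdd.val) fun a b => by
      rw [← pow_add, pow_eq_pow_mod (a.toAdd.val + b.toAdd.val) k5]; rfl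
  let L : LY.M5 →* X ⧸ piCore {2}ᶜ X := SemidirectProduct.lift (q.comp φ) ρ fun a => by
    ext s : 1
    change q.comp φ (LY.act5 a s) = q k ^ a.toAdd.val * q.comp φ s * (q k ^ a.toAdd.val)⁻¹
    rw [conj_pow_κ hj', κ_pow, LY.act5_apply]
  have hL : ∀ s a, L ⟨s, a⟩ = q.comp φ s * q k ^ a.toAdd.val := fun s a => rfl
  have Li : Injective L := (injective_iff_map_eq_one L).2 fun ⟨s, a⟩ e => by
    rw [hL, mul_eq_one_iff_inv_eq] at e
    have e1 := conj_pow_κ hj' a.toAdd.val u0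
    rw [← e, inv_inv, ← map_inv, ← map_mul, ← map_mul, h'.inj.eq_iff, κ_pow] at e1
    obtain rfl := (by decide +kernel : ∀ (a : Fin 5) (s : T0), s⁻¹ * u0 * s = kf^[3 * a.val] u0 →
      a = 0) a.toAdd s e1 ▸ (show a = Multiplicative.ofAdd a.toAdd from rfl)
    obtain rfl : s = 1 := h'.inj (by rw [map_one, ← inv_eq_one, e]; exact pow_zero _)
    rfl
  have Ls : Surjective L := fun g => by
    obtain ⟨x, l, hl, rfl⟩ := h'.dec g (h'.normal E core_quot g)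
    obtain ⟨c, hc⟩ := h'.act l hl
    have : (q k ^ c)⁻¹ * l = 1 := h'.faith E core_quot
      (mul_mem (inv_mem (pow_mem (mem_map_of_mem q hk) c)) hl) fun s => by
        rw [mul_inv_rev, inv_inv, show (q k ^ c)⁻¹ * l * q.comp φ s * (l⁻¹ * q k ^ c) =
          (q k ^ c)⁻¹ * (l * q.comp φ s * l⁻¹) * q k ^ c by group, hc, ← conj_pow_κ hj']
        group
    refine ⟨⟨x, Multiplicative.ofAdd ⟨c % 5, Nat.mod_lt _ (by norm_num)⟩⟩, ?_⟩
    rw [hL, ← inv_mul_eq_one.1 this, pow_eq_pow_mod c k5]; rfl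
  let e := MulEquiv.ofBijective L ⟨Li, Ls⟩
  refine Or.inr ⟨k, e.symm.toMonoidHom.comp q, e.symm.surjective.comp hq, ker e,
    fun s => e.symm_apply_eq.2 ?_, e.symm_apply_eq.2 ?_, h.odd.of_dvd_nat (K.orderOf_dvd_natCard hk),
    hj⟩
  · exact ((hL s 1).trans (by rw [show (Multiplicative.toAdd (1 : Multiplicative (Fin 5))).val = 0
      from rfl, pow_zero, mul_one]; rfl)).symm
  · exact ((hL 1 _).trans (by rw [map_one, one_mul]; exact pow_one _)).symm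

end Loc

/-- The local structure. -/
theorem loc (E : E16.{u}) {G : Type u} [Group G] [Finite G] [IsSimpleGroup G] (S : Sylow 2 G)
    (e : T0 ≃* (S : Subgroup G)) : ∃ φ : T0 →* G, Injective φ ∧ φ.range = S ∧
    (∃ η : G, ∀ s, η * φ s * η⁻¹ = φ ((κ ^ 5) s)) ∧
    ((∃ π : C1[φ z0] →* T0, Odd (Nat.card π.ker) ∧ ∀ s hs, π ⟨φ s, hs⟩ = s) ∨
      ∃ (h : C1[φ z0]) (π : C1[φ z0] →* LY.M5), Surjective π ∧ Odd (Nat.card π.ker) ∧
        (∀ s hs, π ⟨φ s, hs⟩ = SemidirectProduct.inl s) ∧ π h = LY.h5 ∧ Odd (orderOf h) ∧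
        ∀ s, (h : G) * φ s * (h : G)⁻¹ = φ ((κ ^ 3) s)) := by
  have hS := syl_top_of_sylow Nat.prime_two S
  obtain ⟨K, hK⟩ := (hS.of_le le_normalizer le_top).exists_sdprod le_rfl
  have Ko : Odd (Nat.card K) := hK.relIndex ▸ piNat_two_compl.1 (hS.of_le le_normalizer le_top).idx
  let ρ : K →* MulAut T0 := (MulAut.congr e).symm.toMonoidHom.comp
    ((S : Subgroup G).normalizerMonoidHom.comp (inclusion hK.right_le))
  have hρ : ∀ (k : K) s, (e (ρ k s) : G) = k * e s * (k : G)⁻¹ := fun k s => by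
    simp [ρ]; rfl
  obtain ⟨β, hβ⟩ := odd_conj (A := ρ.range) (Ko.of_dvd_nat (card_range_dvd ρ))
  let φ : T0 →* G := (S : Subgroup G).subtype.comp (β.trans e).toMonoidHom
  have inj : Injective φ := (subtype_injective _).comp (β.trans e).injective
  have rng : φ.range = S := by
    rw [MonoidHom.range_comp, MonoidHom.range_eq_top.2 (β.trans e).surjective,
      ← MonoidHom.range_eq_map, range_subtype]
  have act : ∀ k ∈ K, ∃ i < 15, ∀ s, k * φ s * k⁻¹ = φ ((κ ^ i) s) := fun k hk => by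
    obtain ⟨i, hi⟩ := (mem_powers_iff_mem_zpowers (G := MulAut T0)).2 (hβ _ ⟨⟨k, hk⟩, rfl⟩)
    refine ⟨i % 15, Nat.mod_lt _ (by norm_num), fun s => ?_⟩
    simp only at hi
    rw [← κ_mod, hi]
    change _ = (e (β (β⁻¹ (ρ ⟨k, hk⟩ (β s)))) : G)
    rw [MulAut.apply_inv_self, hρ]; rfl
  have dec : ∀ n ∈ N[φ.range], ∃ x, ∃ k ∈ K, n = φ x * k := fun n hn => by
    rw [rng] at hn
    obtain ⟨a, ha, k, hk, rfl⟩ := hK.exists_mul hn
    obtain ⟨x, rfl⟩ : a ∈ φ.range := rng ▸ ha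
    exact ⟨x, k, hk, rfl⟩
  have zz : z0 * z0 = 1 := by decide +kernel
  have cT : ∀ t : T0, t * t = 1 → φ t ∈ C[φ.range] := fun t ht => mem_centralizer_iff.2 (by
    rintro _ ⟨s, rfl⟩; rw [← map_mul, cent t ht, map_mul])
  have cz : ∀ s, φ s ∈ C1[φ z0] := fun s =>
    mem_cent1.2 (mem_centralizer_iff.1 (cT z0 zz) _ ⟨s, rfl⟩)
  rw [← rng] at hS
  refine ⟨φ, inj, rng, ?_, ?_⟩
  · obtain ⟨_, ⟨t, rfl⟩, ht, hc⟩ := exists_conj_invol (G := G) (z := φ z0) (fun hc => absurd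
      (inj (by rw [map_mul, map_mul, hc.is_comm.comm]) : u0 * kf u0 = kf u0 * u0) (by decide +kernel))
      hS (by rintro _ ⟨s, rfl⟩; exact cz s) (by rw [← map_mul, zz, map_one])
      (fun e => absurd (inj (e.trans (map_one φ).symm)) (by decide))
    obtain ⟨g, hg⟩ := isConj_iff.1 hc
    have t2 : t * t = 1 := inj (by
      rw [map_mul, ← hg, conj_invol (by rw [← map_mul, zz, map_one]), map_one])
    obtain ⟨n, hn, d, hd, rfl⟩ := syl_fusion_cent Nat.prime_two hS (mem_top g)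
      (Y := {φ z0}) (by rintro _ rfl; exact cT z0 zz) (by rintro _ rfl; exact hg ▸ cT t t2)
    obtain ⟨x, k, hk, rfl⟩ := dec n hn.2
    obtain ⟨i, hi, ha⟩ := act k hk
    obtain ⟨j, -, hj⟩ := (by decide +kernel : ∀ i < 15, kf^[i] z0 ≠ z0 → ∃ j < 15, i * j % 15 = 5)
      i hi fun e => ht (by
        calc φ t = φ x * (k * (d * φ z0 * d⁻¹) * k⁻¹) * (φ x)⁻¹ := by rw [← hg]; group
          _ = φ z0 := by
            rw [mem_cent1.1 hd.2, mul_inv_cancel_right, ha, κ_pow, e, mem_cent1.1 (cz x),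
              mul_inv_cancel_right])
    exact ⟨k ^ j, fun s => by rw [conj_pow_κ ha, κ_mod, hj]⟩
  let φ' : T0 →* C1[φ z0] := φ.codRestrict _ cz
  have hle : φ.range ≤ C1[φ z0] := by rintro _ ⟨s, rfl⟩; exact cz s
  have r : φ'.range = φ.range.subgroupOf C1[φ z0] := by
    ext x
    exact ⟨fun ⟨s, e⟩ => ⟨s, congrArg Subtype.val e⟩, fun ⟨s, e⟩ => ⟨s, Subtype.ext e⟩⟩
  have L : Loc φ' (K.subgroupOf C1[φ z0]) := ⟨fun x y e => inj (Subtype.ext_iff.1 e :),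
    by rw [r, isPiHallOf_top_iff, ← isPiHallOf_iff_subgroupOf hle]; exact hS.of_le hle le_top,
    Ko.of_dvd_nat (card_comap_dvd_of_injective _ _ (subtype_injective _)), fun k hk => by
      obtain ⟨i, hi, ha⟩ := act k hk
      have := ha z0
      rw [mem_cent1.1 k.2, mul_inv_cancel_right, inj.eq_iff, κ_pow] at this
      obtain ⟨j, rfl⟩ := (by decide +kernel : ∀ i < 15, z0 = kf^[i] z0 → 3 ∣ i) i hi this
      exact ⟨j, fun s => Subtype.ext (ha s)⟩, fun n hn => by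
      obtain ⟨x, k, hk, e⟩ := dec n (mem_normalizer_of_conj_le (conj_le_iff_forall.2 (by
        rintro _ ⟨s, rfl⟩
        obtain ⟨s', e⟩ := (mem_normalizer_iff.1 hn (φ' s)).1 ⟨s, rfl⟩
        exact ⟨s', congrArg Subtype.val e⟩)))
      exact ⟨x, ⟨k, (mul_mem_cancel_left (cz x)).1 (e ▸ n.2)⟩, hk, Subtype.ext e⟩⟩
  rcases L.main E with ⟨π, h1, h2⟩ | ⟨k, π, h1, h2, h3, h4, h5, h6⟩
  · exact Or.inl ⟨π, h1, fun s _ => h2 s⟩
  · exact Or.inr ⟨k, π, h1, h2, fun s _ => h3 s, h4, h5, fun s => congrArg Subtype.val (h6 s)⟩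

end Cfsg.Agent.LyR
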