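import Cfsg.Agent.LyR.T0

/-!
# Automorphisms of order 15 of the model are conjugate to `κ` or its inverse
-/

set_option autoImplicit false

namespace Cfsg.Agent.LyR

open Cfsg Cfsg.Agent.BS Subgroup Function
open scoped commutatorElement

theorem exists_hom {z w a b c d z' w' a' b' c' d' : T0} (h : U34 z w a b c d)
    (h' : U34 z' w' a' b' c' d') (hg : closure {a, b, c, d} = ⊤) :
    ∃ f : T0 →* T0, f a = a' ∧ f b = b' ∧ f c = c' ∧ f d = d' := by
  obtain ⟨D, h1, -, -, ha, hb, hc', hd⟩ := (h.prod h').exists_le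
  let p : D →* T0 := (MonoidHom.fst T0 T0).comp D.subtype
  have hs : Surjective p := by
    rw [← MonoidHom.range_eq_top, eq_top_iff, ← hg, closure_le]
    rintro _ (rfl | rfl | rfl | rfl)
    exacts [⟨⟨_, ha⟩, rfl⟩, ⟨⟨_, hb⟩, rfl⟩, ⟨⟨_, hc'⟩, rfl⟩, ⟨⟨_, hd⟩, rfl⟩]
  have hb' : Bijective p := (Nat.bijective_iff_surjective_and_card p).2
    ⟨hs, le_antisymm (card_T0 ▸ h1) (Nat.card_le_card_of_surjective p hs)⟩
  let e := MulEquiv.ofBijective p hb'
  have k : ∀ x y : T0, (x, y) ∈ D →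
      ((MonoidHom.snd T0 T0).comp D.subtype).comp e.symm.toMonoidHom x = y := fun x y hxy => by
    have : e.symm x = ⟨_, hxy⟩ := e.symm_apply_eq.2 rfl
    simp [this]
  exact ⟨_, k _ _ ha, k _ _ hb, k _ _ hc', k _ _ hd⟩

theorem core_eq {σ : MulAut T0} (F : ∀ t : T0, t * t = 1 → σ (σ t) = t * σ t)
    (F1 : ∀ t : T0, t * t = 1 → σ t = t → t = 1) {u : T0} (hu : u * u ≠ 1)
    (h4 : (σ ^ 4) u = u * σ u) : ∃ α : MulAut T0, ∀ x, σ (α x) = α (κ x) := by
  obtain ⟨f, f0, f5, f2, f7⟩ := exists_hom (u34 κ_F κ_four) (u34 F h4) closure_top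
  have r : ∀ {σ : MulAut T0} {u : T0}, (σ ^ 4) u = u * σ u →
      ∀ i, (σ ^ (i + 4)) u = (σ ^ i) u * (σ ^ (i + 1)) u := fun h4 i => by
    rw [pow_add, MulAut.mul_apply, h4, map_mul, pow_succ, MulAut.mul_apply]
  have r1 := r h4
  have r2 : ∀ i, f ((κ ^ (i + 4)) u0) = f ((κ ^ i) u0) * f ((κ ^ (i + 1)) u0) := fun i => by
    rw [r κ_four, map_mul]
  have f0' : f ((κ ^ 0) u0) = (σ ^ 0) u := f0
  have f1 : f ((κ ^ 1) u0) = (σ ^ 1) u := by
    have := r2 1
    rw [f5, f2, r1 1] at this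
    exact (mul_right_cancel this).symm
  have f4 : f ((κ ^ 4) u0) = (σ ^ 4) u := by rw [r2 0, r1 0, f0', f1]
  have f3 : f ((κ ^ 3) u0) = (σ ^ 3) u := by
    have := r2 3
    rw [f7, f4, r1 3] at this
    exact (mul_right_cancel this).symm
  have f6 : f ((κ ^ 6) u0) = (σ ^ 6) u := by rw [r2 2, r1 2, f2, f3]
  have f8 : f ((κ ^ 8) u0) = (σ ^ 8) u := by rw [r2 4, r1 4, f4, f5]
  have key : σ.toMonoidHom.comp f = f.comp κ.toMonoidHom := by
    have s : ∀ (τ : MulAut T0) (i : ℕ) (x : T0), τ ((τ ^ i) x) = (τ ^ (i + 1)) x := fun τ i x => by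
      rw [pow_succ', MulAut.mul_apply]
    refine MonoidHom.eq_of_eqOn_dense closure_top ?_
    rintro _ (rfl | rfl | rfl | rfl) <;>
      simp only [MonoidHom.comp_apply, MulEquiv.coe_toMonoidHom]
    · rw [f0]; exact f1.symm
    · rw [f5, s, s, f6]
    · rw [f2, s, s, f3]
    · rw [f7, s, s, f8]
  have key' : ∀ x, σ (f x) = f (κ x) := fun x => DFunLike.congr_fun key x
  have fz : f z0 ≠ 1 := by
    rw [show z0 = u0 * u0 by decide +kernel, map_mul, f0]; exact hu
  have inj : Injective f := by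
    rw [injective_iff_map_eq_one]
    have : ∀ t : T0, t * t = 1 → f t = 1 → t = 1 := fun t ht e => by
      by_contra h1
      rcases invol t ht h1 with rfl | rfl | rfl
      · exact fz e
      · exact fz (σ.injective (by rw [key', map_one]; exact e))
      · exact fz (σ.injective (σ.injective (by rw [key', key', map_one, map_one]; exact e)))
    intro x hx
    exact this x (this _ (four x) (by rw [map_mul, hx, one_mul])) hx
  exact ⟨MulEquiv.ofBijective f (Finite.injective_iff_bijective.1 inj), key'⟩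

theorem rot_of_fpf {σ : MulAut T0} (F1 : ∀ t : T0, t * t = 1 → σ t = t → t = 1) (t : T0)
    (ht : t * t = 1) : σ (σ t) = t * σ t := by
  by_cases h1 : t = 1
  · simp [h1]
  have s1 : σ t * σ t = 1 := by rw [← map_mul, ht, map_one]
  have s2 : σ (σ t) * σ (σ t) = 1 := by rw [← map_mul, s1, map_one]
  have n1 : σ t ≠ 1 := by simpa using h1
  have n2 : σ t ≠ t := fun e => h1 (F1 t ht e)
  refine third t ht h1 _ s1 n1 n2 _ s2 (by simpa using h1) (fun e => ?_) (fun e => n1 (F1 _ s1 e))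
  have := F1 (t * σ t) (vv t ht _ s1).1 (by rw [map_mul, e, cent t ht])
  exact n2 (by rw [← one_mul (σ t), ← ht, mul_assoc, this, mul_one])

theorem cube_of_rot {σ : MulAut T0} (F : ∀ t : T0, t * t = 1 → σ (σ t) = t * σ t) (t : T0)
    (ht : t * t = 1) : (σ ^ 3) t = t := by
  have s1 : σ t * σ t = 1 := by rw [← map_mul, ht, map_one]
  rw [pow_succ', pow_two, MulAut.mul_apply, MulAut.mul_apply, F t ht, map_mul, F t ht,
    ← cent t ht (σ t), ← mul_assoc, s1, one_mul]

theorem core_cl {σ : MulAut T0} (F1 : ∀ t : T0, t * t = 1 → σ t = t → t = 1) {u : T0}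
    (hu : cl u ≠ 0) (h4 : cl ((σ ^ 4) u) = cl u + cl (σ u)) :
    ∃ α : MulAut T0, ∀ x, σ (α x) = α (κ x) := by
  have F := rot_of_fpf F1
  obtain ⟨w, hw⟩ : ∃ w, w = (u * σ u)⁻¹ * (σ ^ 4) u := ⟨_, rfl⟩
  have ww : w * w = 1 := (cl_eq_zero w).1 (by
    rw [hw, cl_mul, cl_inv, cl_mul, h4]; linear_combination (cl u + cl (σ u)) * two0)
  refine core_eq F F1 (u := u * w) ?_ ?_
  · rw [Ne, ← cl_eq_zero, cl_mul, (cl_eq_zero w).2 ww, add_zero]; exact hu
  · have : (σ ^ 4) w = σ w := by rw [pow_succ', MulAut.mul_apply, cube_of_rot F w ww]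
    have e : (σ ^ 4) u = u * σ u * w := by rw [hw, mul_inv_cancel_left]
    rw [map_mul, this, map_mul, e, mul_assoc u (σ u), cent w ww (σ u)]
    simp only [mul_assoc]

theorem cl_map (σ : MulAut T0) {x y : T0} (h : cl x = cl y) : cl (σ x) = cl (σ y) := by
  have : cl (x⁻¹ * y) = 0 := by rw [cl_mul, cl_inv, h]; linear_combination (cl y) * two0
  rw [cl_eq_zero] at this
  have h2 : cl (σ (x⁻¹ * y)) = 0 := by rw [cl_eq_zero, ← map_mul, this, map_one]
  rw [map_mul, map_inv, cl_mul, cl_inv] at h2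
  linear_combination h2 - cl (σ y) * two0

theorem fix_five {η : MulAut T0} (h5 : η ^ 5 = 1) (h1 : η ≠ 1) (hV : ∀ t : T0, t * t = 1 → η t = t)
    {n : T0} (hn : cl (η n) = cl n) : cl n = 0 := by
  classical
  have : Fact (Nat.Prime 5) := ⟨by norm_num⟩
  have : Fact (Nat.Prime 2) := ⟨Nat.prime_two⟩
  have : Fintype T0 := Fintype.ofFinite _
  let C : Subgroup T0 := η.toMonoidHom.eqLocus (MonoidHom.id T0)
  have mC : ∀ x, x ∈ C ↔ η x = x := fun x => Iff.rfl
  have c1 : Nat.card T0 ≡ Nat.card C [MOD 5] := by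
    have := Equiv.Perm.card_fixedPoints_modEq (f := (η : T0 → T0)) (p := 5) (n := 1) (by
      funext x
      have := DFunLike.congr_fun h5 x
      exact this)
    rw [← Nat.card_eq_fintype_card, ← Nat.card_eq_fintype_card] at this
    exact this
  have c2 : Nat.card C ∣ 2 ^ 6 := by
    have := C.card_subgroup_dvd_card
    rwa [card_T0] at this
  obtain ⟨i, hi, e⟩ := (Nat.dvd_prime_pow Nat.prime_two).1 c2
  rw [card_T0, e] at c1
  have c4 : Nat.card C = 4 := by
    interval_cases i <;> first | exact e | (exfalso; revert c1; decide) | skip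
    exact absurd (by
      ext x : 1
      exact (mC x).1 (by rw [eq_top_of_card_eq C (e.trans card_T0.symm)]; trivial)) h1
  have hw : (n⁻¹ * η n) * (n⁻¹ * η n) = 1 := (cl_eq_zero _).1 (by
    rw [cl_mul, cl_inv, hn]; linear_combination cl n * two0)
  have e2 : η (η n) = n := by
    have := hV _ hw
    rw [map_mul, map_inv, inv_mul_eq_iff_eq_mul] at this
    rw [this]
    calc η n * (n⁻¹ * η n) = n * (n⁻¹ * η n * (n⁻¹ * η n)) := by group
      _ = n := by rw [hw, mul_one]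
  have hC : n ∈ C := by
    have := DFunLike.congr_fun h5 n
    simp only [pow_succ, pow_zero, one_mul, MulAut.mul_apply, e2, MulAut.one_apply] at this
    exact this
  rw [cl_eq_zero]
  by_contra hh
  have : ({1, z0, kf z0, kf (kf z0), n} : Finset T0).card ≤ 4 := by
    rw [← c4, ← Nat.card_eq_finsetCard]
    have : ∀ x ∈ ({1, z0, kf z0, kf (kf z0), n} : Finset T0), x ∈ C := fun x hx => by
      simp only [Finset.mem_insert, Finset.mem_singleton] at hx
      rcases hx with rfl | rfl | rfl | rfl | rfl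
      exacts [one_mem C, hV _ (by decide), hV _ (by decide +kernel), hV _ (by decide +kernel), hC]
    exact Nat.card_le_card_of_injective (fun x => (⟨x.1, this x.1 x.2⟩ : C)) fun x y e =>
      Subtype.ext (Subtype.mk.inj e)
  revert this hh
  generalize n = m
  revert m
  decide +kernel

theorem exists_conj {σ : MulAut T0} (h15 : σ ^ 15 = 1) (h3 : σ ^ 3 ≠ 1)
    (h5 : ∀ t : T0, t * t = 1 → (σ ^ 5) t = t → t = 1) :
    ∃ α : MulAut T0, (∀ x, σ (α x) = α (κ x)) ∨ ∀ x, σ⁻¹ (α x) = α (κ x) := by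
  have F1 : ∀ t : T0, t * t = 1 → σ t = t → t = 1 := fun t ht e => h5 t ht (by
    simp only [pow_succ, pow_zero, one_mul, MulAut.mul_apply, e])
  have s : ∀ (i j : ℕ) (x : T0), (σ ^ i) ((σ ^ j) x) = (σ ^ (i + j)) x := fun i j x => by
    rw [pow_add, MulAut.mul_apply]
  have r3 : ∀ x, cl x + cl ((σ ^ 5) x) + cl ((σ ^ 10) x) = 0 := fun x => by
    rw [← cl_mul, ← cl_mul, cl_eq_zero]
    refine h5 _ (four _) ?_
    rw [map_mul]
    refine sq_eq_of_cl _ _ ?_
    simp only [map_mul, cl_mul, s, Nat.reduceAdd, h15, MulAut.one_apply]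
    ring
  have r5 : ∀ x, cl x + cl ((σ ^ 3) x) + cl ((σ ^ 6) x) + cl ((σ ^ 9) x) + cl ((σ ^ 12) x) = 0 :=
    fun x => by
      simp only [← cl_mul]
      refine fix_five (η := σ ^ 3) (by rw [← pow_mul, h15]) h3 (cube_of_rot (rot_of_fpf F1)) ?_
      simp only [map_mul, cl_mul, s, Nat.reduceAdd, h15, MulAut.one_apply]
      ring
  set w := u0 * (σ ^ 1) u0 * (σ ^ 4) u0 with hw
  by_cases h : cl w = 0
  · rw [hw, cl_mul, cl_mul, pow_one] at h
    obtain ⟨α, hα⟩ := core_cl F1 (u := u0) (by decide +kernel)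
      (by linear_combination h - (cl u0 + cl (σ u0)) * two0)
    exact ⟨α, Or.inl hα⟩
  · have i1 : σ⁻¹ ((σ ^ 4) w) = (σ ^ 3) w := by
      rw [pow_succ', MulAut.mul_apply, MulAut.inv_apply_self]
    have i4 : (σ⁻¹ ^ 4) ((σ ^ 4) w) = w := by rw [inv_pow, MulAut.inv_apply_self]
    obtain ⟨α, hα⟩ := core_cl (σ := σ⁻¹) (u := (σ ^ 4) w)
      (fun t ht e => F1 t ht (by rw [← e, MulAut.apply_inv_self, e])) (fun e => h (by
        rw [← i4, cl_map _ (e.trans (show (0 : _) = cl 1 by decide +kernel)), map_one]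
        decide +kernel)) (by
        rw [i1, i4]
        have a1 := r3 u0
        have a2 := r3 ((σ ^ 3) u0)
        have a3 := r5 ((σ ^ 1) u0)
        simp only [hw, map_mul, cl_mul, s, Nat.reduceAdd] at a1 a2 a3 ⊢
        linear_combination a1 + a2 + a3 - (cl ((σ ^ 5) u0) + cl ((σ ^ 8) u0) + cl ((σ ^ 3) u0) +
          cl ((σ ^ 4) u0) + cl ((σ ^ 7) u0) + cl ((σ ^ 10) u0) + cl ((σ ^ 13) u0)) * two0)
    exact ⟨α, Or.inr hα⟩

end Cfsg.Agent.LyR
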