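import Cfsg.Agent.LyR.Perm
import Cfsg.Agent.LyR.Aut

/-!
# Recognition of `U₃(4)` from its order and 2-local structure
-/

set_option autoImplicit false
set_option linter.unusedSectionVars false

namespace Cfsg.Agent.LyR

open Cfsg Subgroup Function MulAction

universe u v

theorem cyc15 {K : Type u} [Group K] [Finite K] (h : Nat.card K = 15) :
    ∃ k : K, orderOf k = 15 ∧ ∀ g, ∃ i : ℕ, g = k ^ i := by
  have : Fact (Nat.Prime 3) := ⟨by norm_num⟩
  have : Fact (Nat.Prime 5) := ⟨by norm_num⟩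
  obtain ⟨a, ha⟩ := exists_prime_orderOf_dvd_card' (G := K) 3 (by rw [h]; norm_num)
  obtain ⟨b, hb⟩ := exists_prime_orderOf_dvd_card' (G := K) 5 (by rw [h]; norm_num)
  have hn : (zpowers b).Normal := normal_of_index_eq_minFac_card (by
    have := (zpowers b).card_mul_index
    rw [Nat.card_zpowers, hb, h] at this
    rw [h]; norm_num; omega)
  obtain ⟨j, hj⟩ := (mem_powers_iff_mem_zpowers (G := K)).2 (hn.conj_mem b (mem_zpowers b) a)
  simp only at hj
  have h3 : b ^ (j * j * j) = b ^ 1 := by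
    have a3 : a * a * a = 1 := by rw [← pow_three', ← ha, pow_orderOf_eq_one]
    rw [pow_mul, pow_mul, hj, conj_pow, hj, conj_pow, conj_pow, hj]
    calc a * (a * (a * b * a⁻¹) * a⁻¹) * a⁻¹ = a * a * a * b * (a * a * a)⁻¹ := by group
      _ = b ^ 1 := by rw [a3]; group
  rw [pow_eq_pow_iff_modEq, hb] at h3
  have hc : Commute a b := by
    have : j ≡ 1 [MOD 5] := by
      unfold Nat.ModEq at h3 ⊢
      rw [Nat.mul_mod, Nat.mul_mod j j] at h3
      have := Nat.mod_lt j (show 0 < 5 by norm_num)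
      generalize j % 5 = r at h3 this ⊢
      interval_cases r <;> simp at h3 ⊢
    rw [← hb, ← pow_eq_pow_iff_modEq, hj, pow_one, mul_inv_eq_iff_eq_mul] at this
    exact this
  have ho : orderOf (a * b) = 15 := by
    rw [hc.orderOf_mul_eq_mul_orderOf_of_coprime (by rw [ha, hb]; norm_num), ha, hb]
  refine ⟨a * b, ho, fun g => ?_⟩
  have : zpowers (a * b) = ⊤ := eq_top_of_card_eq _ (by rw [Nat.card_zpowers, ho, h])
  obtain ⟨i, hi⟩ := (mem_powers_iff_mem_zpowers (G := K)).2 (this ▸ mem_top g : g ∈ zpowers (a * b))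
  exact ⟨i, hi.symm⟩

variable {G : Type u} [Group G] [Finite G]

/-- The hypotheses on the group. -/
structure St (S : Sylow 2 G) (φ : T0 →* G) : Prop where
  inj : Injective φ
  rng : ∀ g, g ∈ S ↔ ∃ x, φ x = g
  cG : Nat.card G = 62400
  cC : ∀ t : G, orderOf t = 2 → Nat.card (centralizer ({t} : Set G)) = 320
  cN : Nat.card (normalizer (S : Set G)) = 960

namespace St
variable {S : Sylow 2 G} {φ : T0 →* G}

theorem mem (h : St S φ) (x : T0) : φ x ∈ S := (h.rng _).2 ⟨x, rfl⟩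

theorem ord (h : St S φ) {t : T0} (ht : t * t = 1) (h1 : t ≠ 1) : orderOf (φ t) = 2 := by
  have : Fact (Nat.Prime 2) := ⟨Nat.prime_two⟩
  rw [orderOf_injective φ h.inj]
  exact orderOf_eq_prime (by rw [pow_two, ht]) h1

theorem conj (h : St S φ) {n : G} (hn : n ∈ normalizer (S : Set G)) (x : T0) :
    ∃ y, φ y = n * φ x * n⁻¹ := (h.rng _).1 ((mem_normalizer_iff.1 hn _).1 (h.mem x))

theorem cent_le (h : St S φ) {t : T0} (ht : t * t = 1) (h1 : t ≠ 1) :
    centralizer ({φ t} : Set G) ≤ normalizer (S : Set G) := by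
  classical
  set N := normalizer (S : Set G) with hN
  let _ : MulAction N G := MulAction.compHom G ((MulAut.conj (G := G)).comp N.subtype)
  have sm : ∀ (n : N) (g : G), n • g = n * g * (n : G)⁻¹ := fun _ _ => rfl
  have h3 : (stabilizer N (φ t)).index ≤ 3 := by
    rw [index_stabilizer]
    refine (Set.ncard_le_ncard (t := {φ z0, φ (kf z0), φ (kf (kf z0))}) ?_).trans
      ((Set.ncard_insert_le _ _).trans (Nat.succ_le_succ ((Set.ncard_insert_le _ _).trans (by simp))))
    rintro _ ⟨n, rfl⟩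
    obtain ⟨y, hy⟩ := h.conj n.2 t
    have y2 : y * y = 1 := h.inj (by
      rw [map_mul, hy, map_one, conj_mul, ← map_mul, ht, map_one]; group)
    have y1 : y ≠ 1 := fun e => h1 (h.inj (by
      rw [e, map_one, eq_comm, conj_eq_one_iff] at hy; rw [hy, map_one]))
    simp only [sm, ← hy]
    rcases invol y y2 y1 with rfl | rfl | rfl <;> simp
  have h4 := (stabilizer N (φ t)).card_mul_index
  rw [h.cN] at h4
  have h5 : (stabilizer N (φ t)).map N.subtype ≤ centralizer ({φ t} : Set G) := by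
    rintro _ ⟨n, hn, rfl⟩
    rw [mem_centralizer_singleton_iff]
    exact mul_inv_eq_iff_eq_mul.1 hn
  rw [← eq_of_le_of_card_ge h5 (by
    rw [card_map_of_injective N.subtype_injective, h.cC _ (h.ord ht h1)]; nlinarith)]
  exact map_subtype_le _

theorem ti (h : St S φ) {S' : Sylow 2 G} (hS : S' ≠ S) {x : T0} (hx : φ x ∈ S') : x = 1 := by
  have : Fact (Nat.Prime 2) := ⟨Nat.prime_two⟩
  have key : ∀ t : T0, t * t = 1 → φ t ∈ S' → t = 1 := fun t ht hx => by
    by_contra h1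
    obtain ⟨g, rfl⟩ := exists_smul_eq G S S'
    have l : ((g • S : Sylow 2 G) : Subgroup G) ≤ centralizer ({φ t} : Set G) := by
      obtain ⟨_, ha, e⟩ := hx
      obtain ⟨a, rfl⟩ := (h.rng _).1 ha
      replace e : g * φ a * g⁻¹ = φ t := e
      have a2 : a * a = 1 := h.inj (by
        rw [map_one, ← conj_eq_one_iff (a := g), map_mul, ← conj_mul, e, ← map_mul, ht, map_one])
      rintro _ ⟨_, hb, rfl⟩
      obtain ⟨b, rfl⟩ := (h.rng _).1 hb
      rw [mem_centralizer_singleton_iff, ← e]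
      change g * φ b * g⁻¹ * _ = _ * (g * φ b * g⁻¹)
      rw [conj_mul, conj_mul, ← map_mul, cent a a2, map_mul]
    have := (g • S).isPGroup'.inf_normalizer_sylow S
    rw [inf_eq_left.2 (l.trans (h.cent_le ht h1)), left_eq_inf] at this
    exact hS (Sylow.ext ((g • S).is_maximal' S.isPGroup' this).symm)
  exact key x (key _ (four x) (by rw [map_mul]; exact mul_mem hx hx)) hx

theorem free (h : St S φ) {S' : Sylow 2 G} (hS : S' ≠ S) {x : T0} (hx : φ x • S' = S') : x = 1 := by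
  refine h.ti hS ?_
  have : φ x ∈ (S : Subgroup G) ⊓ normalizer (S' : Set G) :=
    ⟨h.mem x, Sylow.smul_eq_iff_mem_normalizer.1 hx⟩
  rw [S.isPGroup'.inf_normalizer_sylow S'] at this
  exact this.2

theorem card_syl (h : St S φ) : Nat.card (Sylow 2 G) = 65 := by
  have : Fact (Nat.Prime 2) := ⟨Nat.prime_two⟩
  have := (normalizer (S : Set G)).card_mul_index
  rw [h.cN, h.cG] at this
  rw [Sylow.card_eq_index_normalizer S]
  omega

theorem fixS (h : St S φ) (x : T0) : φ x • S = S :=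
  Sylow.smul_eq_iff_mem_normalizer.2 (le_normalizer (H := (S : Subgroup G)) (h.mem x))

/-- Coordinates on the set of Sylow subgroups. -/
def pt (S S0 : Sylow 2 G) (φ : T0 →* G) : Option T0 → Sylow 2 G
  | none => S
  | some x => φ x • S0

theorem bij (h : St S φ) {S0 : Sylow 2 G} (hS : S0 ≠ S) : Bijective (pt S S0 φ) := by
  have ne : ∀ x, φ x • S0 ≠ S := fun x e => hS (by
    rw [← inv_smul_smul (φ x) S0, e, ← map_inv, h.fixS])
  refine (Nat.bijective_iff_injective_and_card _).2 ⟨?_, ?_⟩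
  · rintro (_ | x) (_ | y) e
    · rfl
    · exact absurd e.symm (ne y)
    · exact absurd e (ne x)
    · have : y⁻¹ * x = 1 := h.free hS (by
        rw [map_mul, mul_smul, show φ x • S0 = φ y • S0 from e, map_inv, inv_smul_smul])
      rw [inv_mul_eq_one.1 this]
  · rw [h.card_syl, Finite.card_option, card_T0]

theorem faith [IsSimpleGroup G] (h : St S φ) {S0 : Sylow 2 G} (hS : S0 ≠ S) :
    Injective (toPermHom G (Sylow 2 G)) := by
  have : Fact (Nat.Prime 2) := ⟨Nat.prime_two⟩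
  rw [← MonoidHom.ker_eq_bot_iff]
  refine (IsSimpleGroup.eq_bot_or_eq_top_of_normal _ inferInstance).resolve_right fun e => hS ?_
  obtain ⟨g, rfl⟩ := exists_smul_eq G S S0
  exact DFunLike.congr_fun (MonoidHom.mem_ker.1 (e ▸ mem_top g : g ∈ _)) S

theorem exists_k (h : St S φ) {S0 : Sylow 2 G} (hS : S0 ≠ S) :
    ∃ k : G, k • S = S ∧ k • S0 = S0 ∧ orderOf k = 15 ∧
      ∀ g : G, g • S = S → g • S0 = S0 → ∃ i : ℕ, g = k ^ i := by
  set N := normalizer (S : Set G) with hN
  have h1 : orbit N S0 = {S}ᶜ := by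
    ext Q
    constructor
    · rintro ⟨n, rfl⟩ e
      refine hS ?_
      rw [← inv_smul_smul n S0, show n • S0 = S from e]
      exact Sylow.smul_eq_iff_mem_normalizer.2 n⁻¹.2
    · intro hQ
      obtain ⟨_ | x, rfl⟩ := (h.bij hS).2 Q
      · exact absurd rfl hQ
      · exact ⟨⟨φ x, Sylow.smul_eq_iff_mem_normalizer.1 (h.fixS x)⟩, rfl⟩
  have h2 := (stabilizer N S0).card_mul_index
  rw [index_stabilizer, h1, h.cN, Set.ncard_compl, h.card_syl, Set.ncard_singleton] at h2
  obtain ⟨k, hk, hg⟩ := cyc15 (K := stabilizer N S0) (by omega)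
  refine ⟨k.1.1, Sylow.smul_eq_iff_mem_normalizer.2 k.1.2, k.2, by
    rw [orderOf_coe, orderOf_coe, hk], fun g g1 g2 => ?_⟩
  obtain ⟨i, e⟩ := hg ⟨⟨g, Sylow.smul_eq_iff_mem_normalizer.1 g1⟩, g2⟩
  exact ⟨i, congrArg (fun x => x.1.1) e⟩

theorem model [IsSimpleGroup G] (h : St S φ) {S0 : Sylow 2 G} (hS : S0 ≠ S) {k : G}
    (k1 : k • S = S) (k2 : k • S0 = S0) (k3 : ∀ x, k * φ x * k⁻¹ = φ (κ x))
    (k4 : ∀ g : G, g • S = S → g • S0 = S0 → ∃ i : ℕ, g = k ^ i) :
    ∃ X, Md65 X ∧ Nonempty (G ≃* X) := by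
  have : Fact (Nat.Prime 2) := ⟨Nat.prime_two⟩
  let β := Equiv.ofBijective _ (h.bij hS)
  let ψ : G →* Equiv.Perm (Option T0) :=
    β.symm.permCongrHom.toMonoidHom.comp (toPermHom G (Sylow 2 G))
  have hψ : ∀ g p q, ψ g p = q ↔ g • pt S S0 φ p = pt S S0 φ q := fun g p q =>
    β.symm_apply_eq
  have inj : Injective ψ := β.symm.permCongrHom.injective.comp (h.faith hS)
  have hk : ψ k = kk := by
    ext1 p
    rw [hψ]
    cases p with
    | none => exact k1
    | some x =>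
      change k • φ x • S0 = φ (κ x) • S0
      rw [← k3, mul_smul, mul_smul, inv_smul_eq_iff.2 k2.symm]
  refine ⟨ψ.range, ⟨fun x => ⟨φ x, ?_⟩, ⟨k, hk⟩, ?_, ?_⟩, ⟨MonoidHom.ofInjective inj⟩⟩
  · ext1 p
    rw [hψ]
    cases p with
    | none => exact h.fixS x
    | some y =>
      change φ x • φ y • S0 = φ (x * y) • S0
      rw [map_mul, mul_smul]
  · rintro _ ⟨g, rfl⟩ g1 g2
    rw [hψ] at g1 g2
    obtain ⟨i, rfl⟩ := k4 g g1 (by simpa [pt] using g2)
    exact ⟨i, by rw [map_pow, hk]⟩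
  · obtain ⟨g, e⟩ := exists_smul_eq G S S0
    exact ⟨_, ⟨g, rfl⟩, fun e' => hS (e.symm.trans ((hψ _ _ _).1 e'))⟩

theorem exists_model [IsSimpleGroup G] (h : St S φ) : ∃ X, Md65 X ∧ Nonempty (G ≃* X) := by
  have : Nontrivial (Sylow 2 G) := Finite.one_lt_card_iff_nontrivial.1 (by rw [h.card_syl]; norm_num)
  obtain ⟨S0, hS⟩ := exists_ne S
  obtain ⟨k, k1, k2, ko, k4⟩ := h.exists_k hS
  choose f hf using h.conj (Sylow.smul_eq_iff_mem_normalizer.1 k1)
  have fi : Injective f := fun x y e => h.inj (by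
    have := congrArg φ e
    rwa [hf, hf, mul_left_inj, mul_right_inj] at this)
  let σ : MulAut T0 := MulEquiv.ofBijective (MonoidHom.mk' f fun x y => h.inj (by
    rw [map_mul, hf, hf, hf, map_mul, conj_mul])) (Finite.injective_iff_bijective.1 fi)
  have hσ : ∀ (n : ℕ) x, φ ((σ ^ n) x) = k ^ n * φ x * (k ^ n)⁻¹ := fun n x => by
    induction n with
    | zero => simp
    | succ n ih =>
      rw [pow_succ', MulAut.mul_apply]
      change φ (f _) = _
      rw [hf, ih, pow_succ']; group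
  have k15 : k ^ 15 = 1 := ko ▸ pow_orderOf_eq_one k
  obtain ⟨α, hα⟩ := exists_conj (σ := σ) (by
    ext x : 1; exact h.inj (by rw [hσ, k15]; simp)) (fun e => by
    have : k ^ 3 = 1 := h.faith hS (by
      ext1 Q
      obtain ⟨_ | x, rfl⟩ := (h.bij hS).2 Q
      · change k ^ 3 • S = (1 : G) • S
        rw [one_smul]
        exact (pow_mem (show k ∈ stabilizer G S from k1) 3 :)
      · have := hσ 3 x
        rw [e, MulAut.one_apply, eq_mul_inv_iff_mul_eq] at this
        change k ^ 3 • φ x • S0 = (1 : G) • φ x • S0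
        rw [← mul_smul, ← this, mul_smul, one_smul,
          show k ^ 3 • S0 = S0 from (pow_mem (show k ∈ stabilizer G S0 from k2) 3 :)])
    have := orderOf_dvd_of_pow_eq_one this
    rw [ko] at this
    omega) (fun t ht e => by
    by_contra h1
    have := hσ 5 t
    rw [e, eq_mul_inv_iff_mul_eq] at this
    have h2 := orderOf_dvd_natCard (⟨k ^ 5, mem_centralizer_singleton_iff.2 this.symm⟩ :
      centralizer ({φ t} : Set G))
    rw [h.cC _ (h.ord ht h1), ← orderOf_coe, orderOf_pow, ko] at h2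
    revert h2; decide)
  have h' : St S (φ.comp α.toMonoidHom) := ⟨h.inj.comp α.injective, fun g => (h.rng g).trans
    ⟨fun ⟨x, e⟩ => ⟨α.symm x, by simpa using e⟩, fun ⟨x, e⟩ => ⟨_, e⟩⟩, h.cG, h.cC, h.cN⟩
  rcases hα with hα | hα
  · refine h'.model hS k1 k2 (fun x => ?_) k4
    change _ * φ (α x) * _ = φ (α (κ x))
    rw [← hα, ← hf]; rfl
  · refine h'.model hS (k := k⁻¹) (inv_smul_eq_iff.2 k1.symm) (inv_smul_eq_iff.2 k2.symm)
      (fun x => ?_) fun g g1 g2 => ?_
    · change _ * φ (α x) * _ = φ (α (κ x))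
      have := hf (α (κ x))
      rw [← hα, show f (σ⁻¹ (α x)) = α x from σ.apply_symm_apply _, hα] at this
      rw [this]; group
    · obtain ⟨i, e⟩ := k4 g⁻¹ (inv_smul_eq_iff.2 g1.symm) (inv_smul_eq_iff.2 g2.symm)
      exact ⟨i, by rw [inv_pow, ← e, inv_inv]⟩

end St

theorem exists_St {F : Type*} [Field F] [Fintype F] (hF : Fintype.card F = 16)
    (P : Sylow 2 (Cfsg.PSU 3 F 4)) (S : Sylow 2 G)
    (e : (S : Subgroup G) ≃* (P : Subgroup (Cfsg.PSU 3 F 4))) (hG : Nat.card G = 62400)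
    (hC : ∀ t : G, orderOf t = 2 → Nat.card (centralizer ({t} : Set G)) = 320)
    (hN : Nat.card (normalizer (S : Set G)) = 960) : ∃ φ, St S φ := by
  obtain ⟨e0⟩ := equiv_P hF P
  let e1 := e0.trans e.symm
  exact ⟨(S : Subgroup G).subtype.comp e1.toMonoidHom, (subtype_injective _).comp e1.injective,
    fun g => ⟨fun hg => ⟨e1.symm ⟨g, hg⟩, by simp⟩, fun ⟨x, e⟩ => e ▸ (e1 x).2⟩, hG, hC, hN⟩

/-- Two simple groups with the order and the 2-local structure of `U₃(4)` are isomorphic. -/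
theorem uniq [IsSimpleGroup G] {H : Type v} [Group H] [Finite H] [IsSimpleGroup H]
    {F : Type*} [Field F] [Fintype F] (hF : Fintype.card F = 16)
    (P : Sylow 2 (Cfsg.PSU 3 F 4)) (S : Sylow 2 G) (S' : Sylow 2 H)
    (e : (S : Subgroup G) ≃* (P : Subgroup (Cfsg.PSU 3 F 4)))
    (e' : (S' : Subgroup H) ≃* (P : Subgroup (Cfsg.PSU 3 F 4))) (hG : Nat.card G = 62400)
    (hC : ∀ t : G, orderOf t = 2 → Nat.card (centralizer ({t} : Set G)) = 320)
    (hN : Nat.card (normalizer (S : Set G)) = 960) (hG' : Nat.card H = 62400)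
    (hC' : ∀ t : H, orderOf t = 2 → Nat.card (centralizer ({t} : Set H)) = 320)
    (hN' : Nat.card (normalizer (S' : Set H)) = 960) : Nonempty (G ≃* H) := by
  obtain ⟨φ, h⟩ := exists_St hF P S e hG hC hN
  obtain ⟨φ', h'⟩ := exists_St hF P S' e' hG' hC' hN'
  obtain ⟨X, hX, ⟨a⟩⟩ := h.exists_model
  obtain ⟨Y, hY, ⟨b⟩⟩ := h'.exists_model
  obtain rfl := le_antisymm (hX.le hY) (hY.le hX)
  exact ⟨a.trans b.symm⟩

end Cfsg.Agent.LyR
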