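import Cfsg.Agent.LyR.Recog

/-!
# Automorphisms of odd order of the model
-/

set_option autoImplicit false

namespace Cfsg.Agent.LyR

open Cfsg Subgroup Function

universe u

instance T0.instFintype : Fintype T0 := Fintype.ofEquiv _ T0.eqv.symm

theorem exists_emb {G : Type u} [Group G] {F : Type*} [Field F] [Fintype F]
    (hF : Fintype.card F = 16) (P : Sylow 2 (Cfsg.PSU 3 F 4)) {S : Subgroup G}
    (e : S ≃* (P : Subgroup (Cfsg.PSU 3 F 4))) : ∃ φ : T0 →* G, Injective φ ∧ φ.range = S := by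
  obtain ⟨e0⟩ := equiv_P hF P
  let e1 := e0.trans e.symm
  refine ⟨S.subtype.comp e1.toMonoidHom, (subtype_injective _).comp e1.injective, ?_⟩
  rw [MonoidHom.range_comp, MonoidHom.range_eq_top.2 e1.surjective, ← MonoidHom.range_eq_map,
    range_subtype]

/-- The linear map with given images of the basis. -/
def lin (a b c d x : ℕ) : ℕ :=
  Nat.xor (Nat.xor (cond (Nat.beq (x % 2) 1) a 0) (cond (Nat.beq (x / 2 % 2) 1) b 0))
    (Nat.xor (cond (Nat.beq (x / 4 % 2) 1) c 0) (cond (Nat.beq (x / 8 % 2) 1) d 0))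

/-- Iteration. -/
def itr (f : ℕ → ℕ) (n x : ℕ) : ℕ := Nat.rec x (fun _ r => f r) n

/-- The linear maps which respect the squaring map. -/
def linChk : Bool :=
  allN 16 fun a => allN 16 fun b => allN 16 fun c => allN 16 fun d =>
    !(allN 16 fun x => allN 16 fun y => Nat.beq (bt x x) (bt y y) ==
      Nat.beq (bt (lin a b c d x) (lin a b c d x)) (bt (lin a b c d y) (lin a b c d y))) ||
    ((allN 16 fun x => Nat.beq (itr (lin a b c d) 60 x) x) &&
      (!(allN 16 fun x => Nat.beq (itr (lin a b c d) 15 x) x) ||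
        !(allN 15 fun k => !(allN 16 fun x => Nat.beq (lin a b c d x) (itr ka k x % 16)))))

theorem linChk_ok : linChk = true := by decide +kernel

theorem cl_iff : ∀ x y : T0, cl x = cl y ↔ x.v % 16 = y.v % 16 := by decide +kernel

theorem m16_mul : ∀ x y : T0, (x * y).v % 16 = Nat.xor (x.v % 16) (y.v % 16) := by decide +kernel

theorem sq_iff : ∀ x y : T0, x * x = y * y ↔ bt (x.v % 16) (x.v % 16) = bt (y.v % 16) (y.v % 16) := by
  decide +kernel

theorem lin_eq (α : MulAut T0) (s : T0) : (α s).v % 16 = lin ((α (T0.of 1)).v % 16)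
    ((α (T0.of 2)).v % 16) ((α (T0.of 4)).v % 16) ((α (T0.of 8)).v % 16) (s.v % 16) := by
  have h : ∀ s : T0, cl s = cl (T0.of 1 ^ (s.v % 16 % 2) * T0.of 2 ^ (s.v % 16 / 2 % 2) *
      (T0.of 4 ^ (s.v % 16 / 4 % 2) * T0.of 8 ^ (s.v % 16 / 8 % 2))) := by decide +kernel
  have e : ∀ (y : T0) (n : ℕ), (α (y ^ (n % 2))).v % 16 =
      cond (Nat.beq (n % 2) 1) ((α y).v % 16) 0 := fun y n => by
    rcases Nat.mod_two_eq_zero_or_one n with e | e <;> rw [e]
    · rw [pow_zero, map_one]; rfl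
    · rw [pow_one]; rfl
  rw [(cl_iff _ _).1 (cl_map α (h s)), map_mul, map_mul, map_mul, m16_mul, m16_mul, m16_mul,
    e, e, e, e, lin]

theorem odd_cl {α : MulAut T0} (h : Odd (orderOf α)) :
    ∃ k < 15, ∀ s, cl (α s) = cl ((κ ^ k) s) := by
  have E := lin_eq α
  have l : ∀ x : ℕ, x % 16 < 16 := fun x => Nat.mod_lt _ (by decide)
  have C := allN_iff.1 (allN_iff.1 (allN_iff.1 (allN_iff.1 linChk_ok _ (l (α (T0.of 1)).v)) _
    (l (α (T0.of 2)).v)) _ (l (α (T0.of 4)).v)) _ (l (α (T0.of 8)).v)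
  generalize lin ((α (T0.of 1)).v % 16) ((α (T0.of 2)).v % 16) ((α (T0.of 4)).v % 16)
    ((α (T0.of 8)).v % 16) = L at E C
  have it : ∀ (n : ℕ) (s : T0), ((α ^ n) s).v % 16 = itr L n (s.v % 16) := fun n s => by
    induction n with
    | zero => rfl
    | succ n ih => rw [pow_succ', MulAut.mul_apply, E, ih]; rfl
  have o : ∀ x < 16, (T0.of x).v % 16 = x := by decide
  simp only [allN_iff, Bool.or_eq_true, Bool.not_eq_true', ← Bool.not_eq_true,
    ← imp_iff_not_or, Bool.and_eq_true, Nat.beq_eq, beq_iff_eq] at C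
  simp only [not_forall, not_not, exists_prop, not_exists, not_and] at C
  obtain ⟨C1, C2⟩ := C fun x hx y hy => by
    have h1 := sq_iff (T0.of x) (T0.of y)
    have h2 := sq_iff (α (T0.of x)) (α (T0.of y))
    rw [E, E, o x hx, o y hy, ← map_mul, ← map_mul, α.injective.eq_iff] at h2
    rw [o x hx, o y hy] at h1
    rw [Bool.eq_iff_iff, Nat.beq_eq, Nat.beq_eq, ← h1, h2]
  have c60 : ∀ (j : ℕ) (s : T0), cl ((α ^ (60 * j)) s) = cl s := fun j s => by
    induction j with
    | zero => rfl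
    | succ j ih =>
      rw [mul_add, mul_one, add_comm, pow_add, MulAut.mul_apply, cl_map _ ih, cl_iff, it, C1 _ (l _)]
  obtain ⟨m, hm⟩ := h
  have c15 : ∀ s, cl ((α ^ 15) s) = cl s := fun s => by
    rw [← cl_map (α ^ 15) (c60 (m * m + m) s), ← MulAut.mul_apply, ← pow_add,
      show 15 + 60 * (m * m + m) = (2 * m + 1) * (15 * (2 * m + 1)) by ring, pow_mul, ← hm,
      pow_orderOf_eq_one, one_pow, MulAut.one_apply]
  obtain ⟨k, hk, e⟩ := C2 fun x hx => by
    have := (cl_iff _ _).1 (c15 (T0.of x))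
    rwa [it, o x hx] at this
  refine ⟨k, hk, fun s => ?_⟩
  rw [cl_iff, E, e _ (l _), κ_pow]
  exact (by decide +kernel : ∀ k < 15, ∀ s : T0, itr ka k (s.v % 16) % 16 = (kf^[k] s).v % 16) k hk s

theorem odd_eq_one {α : MulAut T0} (h : Odd (orderOf α)) (h1 : ∀ s, cl (α s) = cl s) : α = 1 := by
  have hV : ∀ t : T0, t * t = 1 → α t = t := fun t ht => by
    obtain ⟨x, rfl⟩ := (by decide +kernel : ∀ t : T0, t * t = 1 → ∃ x, x * x = t) t ht
    rw [map_mul]; exact sq_eq_of_cl _ _ (h1 x)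
  have h2 : α ^ 2 = 1 := by
    ext n : 1
    have hw : (n⁻¹ * α n) * (n⁻¹ * α n) = 1 := (cl_eq_zero _).1 (by
      rw [cl_mul, cl_inv, h1]; linear_combination cl n * two0)
    have := hV _ hw
    rw [map_mul, map_inv, inv_mul_eq_iff_eq_mul] at this
    rw [pow_two, MulAut.mul_apply, this]
    calc α n * (n⁻¹ * α n) = n * (n⁻¹ * α n * (n⁻¹ * α n)) := by group
      _ = n := by rw [hw, mul_one]
  rw [← orderOf_eq_one_iff]
  exact Nat.eq_one_of_dvd_coprimes (Nat.coprime_two_right.2 h) dvd_rfl (orderOf_dvd_of_pow_eq_one h2)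

theorem κ_15 : κ ^ 15 = 1 := by ext x : 1; rw [κ_pow]; exact (kf_15 x).1

theorem orderOf_κ : orderOf κ = 15 := by
  refine orderOf_eq_of_pow_and_pow_div_prime (by norm_num) κ_15 fun p hp hd e => ?_
  have := DFunLike.congr_fun e u0
  have h2 := Nat.le_of_dvd (by norm_num) hd
  have h3 := hp.two_le
  rw [κ_pow] at this
  change _ = u0 at this
  revert this hd
  interval_cases p <;> decide +kernel

instance instFiniteAut : Finite (MulAut T0) := DFunLike.finite _

/-- The automorphisms which are trivial on the Frattini quotient. -/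
def triv : Subgroup (MulAut T0) where
  carrier := {β | ∀ s, cl (β s) = cl s}
  one_mem' := fun _ => rfl
  mul_mem' := fun ha hb s => (ha _).trans (hb s)
  inv_mem' := fun {a} ha s => by rw [← ha, MulAut.apply_inv_self]

instance triv_normal : triv.Normal := ⟨fun n hn g s => by
  rw [MulAut.mul_apply, MulAut.mul_apply, cl_map g (hn _), MulAut.apply_inv_self]⟩

theorem card_dvd_15 {A : Subgroup (MulAut T0)} (h : Odd (Nat.card A)) : Nat.card A ∣ 15 := by
  have ho : ∀ a : A, Odd (orderOf a.1) := fun a => h.of_dvd_nat (A.orderOf_dvd_natCard a.2)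
  let π : A →* MulAut T0 ⧸ triv := (QuotientGroup.mk' triv).comp A.subtype
  have hπ : Injective π := (injective_iff_map_eq_one π).2 fun a ha =>
    Subtype.ext (odd_eq_one (ho a) ((QuotientGroup.eq_one_iff a.1).1 ha))
  have hl : π.range ≤ zpowers (QuotientGroup.mk' triv κ) := by
    rintro _ ⟨a, rfl⟩
    obtain ⟨k, -, hk⟩ := odd_cl (ho a)
    refine ⟨k, ?_⟩
    simp only [zpow_natCast, ← map_pow]
    refine QuotientGroup.eq.2 fun s => ?_
    rw [MulAut.mul_apply, coe_subtype, cl_map _ (hk s), MulAut.inv_apply_self]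
  rw [Nat.card_congr (MonoidHom.ofInjective hπ).toEquiv]
  refine (card_dvd_of_le hl).trans ?_
  rw [Nat.card_zpowers, ← orderOf_κ]
  exact orderOf_map_dvd _ _

theorem odd_conj {A : Subgroup (MulAut T0)} (h : Odd (Nat.card A)) :
    ∃ β : MulAut T0, ∀ α ∈ A, β⁻¹ * α * β ∈ zpowers κ := by
  have syl : ∀ p n : ℕ, p.Prime → p * n = 15 → Nat.card A = p →
      ∃ β : MulAut T0, ∀ α ∈ A, β⁻¹ * α * β ∈ zpowers κ := fun p n hp hn hA => by
    have : Fact p.Prime := ⟨hp⟩
    have k : ∀ B : Subgroup (MulAut T0), Nat.card B = p → ∃ P : Sylow p (MulAut T0), B = P :=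
      fun B hB => by
        obtain ⟨P, hP⟩ := (IsPGroup.of_card (n := 1) (G := B) (by rw [hB, pow_one])).exists_le_sylow
        refine ⟨P, eq_of_le_of_card_ge hP ?_⟩
        obtain ⟨i, hi⟩ := IsPGroup.iff_card.1 P.isPGroup'
        have h1 : Odd p := (show Odd 15 by decide).of_dvd_nat ⟨n, hn.symm⟩
        have h2 := card_dvd_15 (A := P) (hi ▸ h1.pow)
        rw [hi] at h2 ⊢
        rw [hB]
        rcases i with _ | _ | i
        · simpa using hp.one_le
        · simp
        · have h3 : p * p ∣ 15 := (Dvd.intro (p ^ i) (by ring) : p * p ∣ p ^ (i + 1 + 1)).trans h2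
          exact absurd ((by decide +kernel : Squarefree 15) p h3) hp.prime.not_isUnit
    obtain ⟨P, rfl⟩ := k A hA
    obtain ⟨Q, hQ⟩ := k (zpowers (κ ^ n)) (by
      rw [Nat.card_zpowers, orderOf_pow, orderOf_κ, ← hn, Nat.gcd_mul_left_left,
        Nat.mul_div_cancel _ (by rcases n with _ | n <;> omega)])
    obtain ⟨g, rfl⟩ := MulAction.exists_smul_eq (MulAut T0) P Q
    refine ⟨g⁻¹, fun α hα => zpowers_le.2 (pow_mem (mem_zpowers κ) n) ?_⟩
    rw [hQ, inv_inv]
    exact ⟨α, hα, rfl⟩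
  have h15 := card_dvd_15 h
  rcases (by decide : ∀ n ≤ 15, n ∣ 15 → n = 1 ∨ n = 3 ∨ n = 5 ∨ n = 15) _
    (Nat.le_of_dvd (by norm_num) h15) h15 with e | e | e | e
  · exact ⟨1, fun α hα => by rw [card_eq_one.1 e, mem_bot] at hα; simp [hα]⟩
  · exact syl 3 5 (by norm_num) rfl e
  · exact syl 5 3 (by norm_num) rfl e
  obtain ⟨σ, ho, hg⟩ := cyc15 e
  rw [← orderOf_coe] at ho
  have n : ∀ i, σ.1 ^ i = 1 → 15 ∣ i := fun i hi => ho ▸ orderOf_dvd_of_pow_eq_one hi
  have o5 : Odd (orderOf (σ.1 ^ 5)) := by rw [orderOf_pow, ho]; decide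
  obtain ⟨β, hβ⟩ := exists_conj (σ := σ.1) (ho ▸ pow_orderOf_eq_one _)
    (fun e => absurd (n 3 e) (by decide)) (fun t ht e => by
      obtain ⟨k, hk, hc⟩ := odd_cl o5
      obtain ⟨x, rfl⟩ := (by decide +kernel : ∀ t : T0, t * t = 1 → ∃ x, x * x = t) t ht
      rw [map_mul, sq_eq_of_cl _ _ (hc x), κ_pow] at e
      have h3 : cl ((κ ^ k) ((κ ^ k) ((κ ^ k) u0))) = cl u0 := by
        rw [← hc, cl_map _ (hc _).symm, cl_map _ (cl_map _ (hc _).symm), ← MulAut.mul_apply,
          ← MulAut.mul_apply, ← pow_add, ← pow_add, show 5 + 5 + 5 = orderOf σ.1 from ho.symm,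
          pow_orderOf_eq_one]; rfl
      have h0 : k ≠ 0 := fun e => absurd (n 5 (odd_eq_one o5 (by subst e; exact hc))) (by decide)
      simp only [κ_pow] at h3
      exact (by decide +kernel : ∀ k < 15, k ≠ 0 → cl (kf^[k] (kf^[k] (kf^[k] u0))) = cl u0 →
        ∀ x : T0, kf^[k] x * kf^[k] x = x * x → x * x = 1) k hk h0 h3 x e)
  refine ⟨β, fun α hα => ?_⟩
  obtain ⟨i, hi⟩ := hg ⟨α, hα⟩
  obtain rfl : α = σ.1 ^ i := congrArg Subtype.val hi
  rw [← inv_inv β, inv_inv β⁻¹, ← conj_pow, inv_inv]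
  refine pow_mem ?_ i
  rcases hβ with hβ | hβ
  · rw [show β⁻¹ * σ.1 * β = κ from by
      ext x : 1; rw [MulAut.mul_apply, MulAut.mul_apply, hβ, MulAut.inv_apply_self]]
    exact mem_zpowers κ
  · rw [← inv_mem_iff, show (β⁻¹ * σ.1 * β)⁻¹ = κ from by
      ext x : 1
      rw [mul_inv_rev, mul_inv_rev, inv_inv, MulAut.mul_apply, MulAut.mul_apply, hβ,
        MulAut.inv_apply_self]]
    exact mem_zpowers κ

end Cfsg.Agent.LyR
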