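import Cfsg.Agent.LyR.Srch

/-!
# The doubly transitive group of degree 65 is unique
-/

set_option autoImplicit false

namespace Cfsg.Agent.LyR

open Cfsg Subgroup Function Equiv

/-- Left translation on the 65 points. -/
def tr (x : T0) : Perm (Option T0) := (Equiv.mulLeft x).optionCongr

/-- `κ` on the 65 points. -/
def kk : Perm (Option T0) := κ.toEquiv.optionCongr

theorem p_ai (f : Perm (Option T0)) (p : Option T0) : f (f⁻¹ p) = p := f.apply_symm_apply p
theorem p_ia (f : Perm (Option T0)) (p : Option T0) : f⁻¹ (f p) = p := f.symm_apply_apply p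
theorem tr_none (x : T0) : tr x none = none := rfl
theorem tr_some (x y : T0) : tr x (some y) = some (x * y) := rfl
theorem kk_none : kk none = none := rfl
theorem kk_some (y : T0) : kk (some y) = some (kf y) := rfl

theorem tr_mul (x y : T0) : tr (x * y) = tr x * tr y := by
  ext1 p; cases p <;> simp [tr_none, tr_some, mul_assoc]

theorem tr_one : tr 1 = 1 := by ext1 p; cases p <;> simp [tr_none, tr_some]

theorem tr_inv (x : T0) : (tr x)⁻¹ = tr x⁻¹ :=
  inv_eq_of_mul_eq_one_right (by rw [← tr_mul, mul_inv_cancel, tr_one])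

theorem kk_pow_none (n : ℕ) : (kk ^ n) none = none := Perm.pow_apply_eq_self_of_apply_eq_self rfl n

theorem kk_pow_some (n : ℕ) (y : T0) : (kk ^ n) (some y) = some (kf^[n] y) := by
  induction n generalizing y with
  | zero => rfl
  | succ n ih => rw [pow_succ, Perm.mul_apply, kk_some, ih]; rfl

theorem kf_one : kf 1 = 1 := by decide +kernel

theorem kk_pow_one (n : ℕ) : (kk ^ n) (some 1) = some 1 :=
  Perm.pow_apply_eq_self_of_apply_eq_self (by rw [kk_some, kf_one]) n

theorem kk_15 : kk ^ 15 = 1 := by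
  ext1 p
  cases p with
  | none => exact kk_pow_none _
  | some y => rw [kk_pow_some]; exact congrArg some (kf_15 y).1

theorem kk_tr (n : ℕ) (x : T0) : kk ^ n * tr x = tr (kf^[n] x) * kk ^ n := by
  ext1 p
  cases p with
  | none => simp only [Perm.mul_apply, tr_none, kk_pow_none]
  | some y => simp only [Perm.mul_apply, tr_some, kk_pow_some, ← κ_pow, map_mul]

/-- The properties which determine the involution. -/
structure Qs (s : Perm (Option T0)) : Prop where
  n : s none = some 1
  sq : s * s = 1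
  k : s * kk = kk ^ 11 * s
  z : s (some z0) = some z0
  w : ∀ a b, s (some u0) = some a → s (some u0⁻¹) = some b →
    Commute (s * tr a⁻¹ * s * tr u0 * s * tr b) kk

/-- Code of a point. -/
def enc : Option T0 → ℕ
  | none => 64
  | some x => x.v

/-- Point with a code. -/
def dec (n : ℕ) : Option T0 := if h : n < 64 then some ⟨n, h⟩ else none

theorem dec_enc (p : Option T0) : dec (enc p) = p := by
  cases p with
  | none => rfl
  | some x => simp [dec, enc, x.lt]

theorem beq64 (x : T0) : Nat.beq x.v 64 = false := by revert x; decide +kernel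

theorem enc_tr (x : T0) (p : Option T0) : enc (tr x p) = trN x.v (enc p) := by
  cases p with
  | none => rfl
  | some y => simp only [tr_some, enc, trN, beq64]; rfl

theorem enc_kk (p : Option T0) : enc (kk p) = kN (enc p) := by
  cases p with
  | none => rfl
  | some y => simp only [kk_some, enc, kN, beq64]; rfl

/-- Orbit representatives. -/
def rep (i : ℕ) : T0 := T0.of (sel 1 17 33 49 i)

theorem orb : ∀ x : T0, x ≠ 1 → kf^[om x.v] (rep (oi x.v)) = x ∧ om x.v < 15 ∧ oi x.v < 5 := by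
  decide +kernel

theorem kp_eq : ∀ m < 15, ∀ y : T0, (kf^[11 * m % 15] y).v = kp m y.v := by decide +kernel

namespace Qs
variable {s : Perm (Option T0)}

theorem ss (h : Qs s) (p : Option T0) : s (s p) = p := by rw [← Perm.mul_apply, h.sq]; rfl

theorem one (h : Qs s) : s (some 1) = none := by rw [← h.n, h.ss]

theorem ex (h : Qs s) {x : T0} (hx : x ≠ 1) : ∃ y, s (some x) = some y ∧ y ≠ 1 := by
  cases e : s (some x) with
  | none => exact absurd (Option.some.inj (s.injective (e.trans h.one.symm))) hx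
  | some y =>
    refine ⟨y, rfl, fun e1 => ?_⟩
    rw [e1, ← h.n] at e
    exact absurd (s.injective e) (by simp)

theorem kpow (h : Qs s) (m : ℕ) : s * kk ^ m = kk ^ (11 * m % 15) * s := by
  rw [← pow_eq_pow_mod _ kk_15]
  induction m with
  | zero => simp
  | succ m ih => rw [pow_succ, ← mul_assoc, ih, mul_assoc, h.k, ← mul_assoc, ← pow_add, mul_add]

theorem val (h : Qs s) {x y : T0} (hx : x ≠ 1) (hy : s (some (rep (oi x.v))) = some y) :
    enc (s (some x)) = kp (om x.v) y.v := by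
  obtain ⟨e1, e2, -⟩ := orb x hx
  conv_lhs => rw [← e1, ← kk_pow_some, ← Perm.mul_apply, h.kpow, Perm.mul_apply, hy, kk_pow_some]
  exact kp_eq _ e2 y

theorem pc_ok (h : Qs s) {c y y' : T0} {j : ℕ} (h1 : s (some c) = some y) (hy : y ≠ 1)
    (h2 : s (some (rep j)) = some y') : pc c.v y.v j y'.v = true := by
  rw [pc, Bool.or_eq_true, Bool.not_eq_true', ← Bool.not_eq_true, Nat.beq_eq, Nat.beq_eq,
    ← imp_iff_not_or]
  rintro rfl
  rw [← h.val hy h2, ← h1, h.ss]; rfl

theorem eq_cand (h : Qs s) {a b c d : T0} (ha : s (some (rep 1)) = some a)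
    (hb : s (some (rep 2)) = some b) (hc : s (some (rep 3)) = some c)
    (hd : s (some (rep 4)) = some d) (p : Option T0) :
    enc (s p) = cand a.v b.v c.v d.v (enc p) := by
  cases p with
  | none => rw [h.n]; rfl
  | some x =>
    by_cases hx : x = 1
    · rw [hx, h.one]; rfl
    have b0 : Nat.beq x.v 0 = false := by
      revert hx; generalize x = y; revert y; decide +kernel
    simp only [cand, enc, beq64, b0, cond_false]
    have := (orb x hx).2.2
    have v := fun y => h.val (x := x) (y := y) hx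
    generalize oi x.v = i at this v
    interval_cases i
    exacts [v _ h.z, v _ ha, v _ hb, v _ hc, v _ hd]

theorem table (h : Qs s) (p : Option T0) : enc (s p) = cand 25 62 29 43 (enc p) := by
  obtain ⟨a, ha, a1⟩ := h.ex (x := rep 1) (by decide +kernel)
  obtain ⟨b, hb, b1⟩ := h.ex (x := rep 2) (by decide +kernel)
  obtain ⟨c, hc, c1⟩ := h.ex (x := rep 3) (by decide +kernel)
  obtain ⟨d, hd, d1⟩ := h.ex (x := rep 4) (by decide +kernel)
  have hz : s (some (rep 0)) = some z0 := h.z
  have E := h.eq_cand ha hb hc hd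
  have S := srch_ok
  simp only [srch, allN_iff, Bool.or_eq_true, Bool.not_eq_true', ← Bool.not_eq_true,
    ← imp_iff_not_or, Bool.and_eq_true, Nat.beq_eq] at S
  have := S a.v a.lt ⟨h.pc_ok ha a1 hz, h.pc_ok ha a1 ha⟩ b.v b.lt
    ⟨h.pc_ok ha a1 hb, h.pc_ok hb b1 hz, h.pc_ok hb b1 ha, h.pc_ok hb b1 hb⟩ c.v c.lt
    ⟨h.pc_ok ha a1 hc, h.pc_ok hb b1 hc, h.pc_ok hc c1 hz, h.pc_ok hc c1 ha, h.pc_ok hc c1 hb,
      h.pc_ok hc c1 hc⟩ d.v d.lt
    ⟨h.pc_ok ha a1 hd, h.pc_ok hb b1 hd, h.pc_ok hc c1 hd, by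
      have := E (some d)
      rw [← hd, h.ss, hd] at this
      exact this.symm⟩ (fun q hq => ?_)
  · obtain ⟨e1, e2, e3, e4⟩ := this
    rw [← e1, ← e2, ← e3, ← e4, E]
  have W : ∀ p, enc ((s * tr a⁻¹ * s * tr u0 * s * tr b) p) =
      wN (cand a.v b.v c.v d.v) a.v b.v (enc p) := fun p => by
    simp only [Perm.mul_apply, E, enc_tr]; rfl
  have := h.w a b ha (by rw [← hb]; congr 2)
  have := congrArg (fun f : Perm (Option T0) => enc (f (some ⟨q, hq⟩))) this.eq
  simp only [Perm.mul_apply _ kk, Perm.mul_apply kk, W, enc_kk] at this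
  exact this

theorem unique {s' : Perm (Option T0)} (h : Qs s) (h' : Qs s') : s = s' := by
  ext1 p
  rw [← dec_enc (s p), h.table, ← h'.table, dec_enc]

end Qs

/-- The permutation model. -/
structure Md65 (X : Subgroup (Perm (Option T0))) : Prop where
  tr : ∀ x, tr x ∈ X
  kk : kk ∈ X
  stab : ∀ p ∈ X, p none = none → p (some 1) = some 1 → ∃ i : ℕ, p = LyR.kk ^ i
  mv : ∃ p ∈ X, p none ≠ none

namespace Md65
variable {X : Subgroup (Perm (Option T0))}

theorem stab' (h : Md65 X) {p : Perm (Option T0)} (hp : p ∈ X) (h1 : p none = none)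
    (h2 : p (some 1) = some 1) : ∃ i < 15, p = LyR.kk ^ i := by
  obtain ⟨i, rfl⟩ := h.stab p hp h1 h2
  exact ⟨i % 15, Nat.mod_lt _ (by decide), pow_eq_pow_mod _ kk_15⟩

theorem exists_swap (h : Md65 X) : ∃ g ∈ X, g none = some 1 ∧ g (some 1) = none := by
  obtain ⟨p, hp, h1⟩ := h.mv
  obtain ⟨a, ha⟩ := Option.ne_none_iff_exists'.1 h1
  obtain ⟨b, hb⟩ := Option.ne_none_iff_exists'.1 (show p⁻¹ none ≠ none from fun e =>
    h1 (by conv_lhs => rw [← e, p_ai]))
  refine ⟨LyR.tr a⁻¹ * p * LyR.tr b, mul_mem (mul_mem (h.tr _) hp) (h.tr _), ?_, ?_⟩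
  · simp only [Perm.mul_apply, tr_none, ha, tr_some, inv_mul_cancel]
  · simp only [Perm.mul_apply, tr_some, mul_one, ← hb, p_ai, tr_none]

theorem comm (h : Md65 X) {g : Perm (Option T0)} (hg : g ∈ X) (h1 : g none = some 1)
    (h2 : g (some 1) = none) : Commute (LyR.kk ^ 3) (g * LyR.tr z0 * g⁻¹) := by
  obtain ⟨i, hi, e⟩ := h.stab' (p := g⁻¹ * LyR.kk ^ 3 * g)
    (mul_mem (mul_mem (inv_mem hg) (pow_mem h.kk 3)) hg)
    (by simp only [Perm.mul_apply, h1, kk_pow_one]; rw [← h1, p_ia])
    (by simp only [Perm.mul_apply, h2, kk_pow_none]; rw [← h2, p_ia])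
  have e5 : LyR.kk ^ (i * 5) = 1 := by
    rw [pow_mul, ← e, ← inv_inv g, inv_inv g⁻¹, conj_pow, ← pow_mul, kk_15]; simp
  have e6 : kf^[i] z0 = z0 := by
    have := congrArg (fun f : Perm (Option T0) => f (some z0)) e5
    simp only [kk_pow_some, Perm.one_apply, Option.some.injEq] at this
    exact (by decide +kernel : ∀ i < 15, kf^[i * 5] z0 = z0 → kf^[i] z0 = z0) i hi this
  have := kk_tr i z0
  rw [e6, ← e] at this
  calc LyR.kk ^ 3 * (g * LyR.tr z0 * g⁻¹) = g * (g⁻¹ * LyR.kk ^ 3 * g * LyR.tr z0) * g⁻¹ := by group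
    _ = g * LyR.tr z0 * g⁻¹ * LyR.kk ^ 3 := by rw [this]; group

theorem exists_swap' (h : Md65 X) :
    ∃ g ∈ X, g none = some 1 ∧ g (some 1) = none ∧ g (some z0) = some z0 := by
  obtain ⟨g, hg, h1, h2⟩ := h.exists_swap
  have i1 : g⁻¹ none = some 1 := by rw [← h2, p_ia]
  have := congrArg (fun f : Perm (Option T0) => f none) (h.comm hg h1 h2).eq
  simp only [Perm.mul_apply, kk_pow_none, i1, tr_some, mul_one] at this
  cases e : g (some z0) with
  | none => exact absurd (g.injective (e.trans h2.symm)) (by decide)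
  | some y =>
    rw [e, kk_pow_some, Option.some.injEq] at this
    have y1 : y ≠ 1 := fun e1 => absurd (g.injective (e.trans (e1 ▸ h1.symm))) (by simp)
    obtain ⟨j, hj⟩ : ∃ j < 3, kf^[j] y = z0 := by
      revert this y1; generalize y = x; revert x; decide +kernel
    exact ⟨LyR.kk ^ j * g, mul_mem (pow_mem h.kk _) hg, by rw [Perm.mul_apply, h1, kk_pow_one],
      by rw [Perm.mul_apply, h2, kk_pow_none], by rw [Perm.mul_apply, e, kk_pow_some, hj.2]⟩

theorem exists_s (h : Md65 X) : ∃ s ∈ X, Qs s := by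
  obtain ⟨g, hg, h1, h2, h3⟩ := h.exists_swap'
  have zz : z0 * z0 = 1 := by decide +kernel
  have tz : LyR.tr z0 * LyR.tr z0 = 1 := by rw [← tr_mul, zz, tr_one]
  have i1 : g⁻¹ none = some 1 := by rw [← h2, p_ia]
  have i2 : g⁻¹ (some 1) = none := by rw [← h1, p_ia]
  obtain ⟨s, hs⟩ : ∃ s, s = LyR.tr z0 * (g * LyR.tr z0 * g⁻¹) * LyR.tr z0 := ⟨_, rfl⟩
  have sX : s ∈ X := hs ▸ mul_mem (mul_mem (h.tr _) (mul_mem (mul_mem hg (h.tr _)) (inv_mem hg)))
    (h.tr _)
  have n : s none = some 1 := by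
    simp only [hs, Perm.mul_apply, tr_none, i1, tr_some, mul_one, h3, zz]
  have sq : s * s = 1 := by
    calc s * s = LyR.tr z0 * (g * LyR.tr z0 * g⁻¹) * (LyR.tr z0 * LyR.tr z0) *
          (g * LyR.tr z0 * g⁻¹) * LyR.tr z0 := by rw [hs]; group
      _ = LyR.tr z0 * g * (LyR.tr z0 * LyR.tr z0) * g⁻¹ * LyR.tr z0 := by
        conv_lhs => rw [tz]
        group
      _ = 1 := by rw [tz, mul_one, mul_inv_cancel_right, tz]
  have ss : ∀ p, s (s p) = p := fun p => by rw [← Perm.mul_apply, sq]; rfl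
  have n' : s (some 1) = none := by rw [← n, ss]
  have z : s (some z0) = some z0 := by
    simp only [hs, Perm.mul_apply, tr_none, i2, tr_some, mul_one, h1, zz]
  have fix : ∀ p, s p = p → p = some z0 := fun p hp => by
    rw [hs] at hp
    have e : LyR.tr z0 (g⁻¹ (LyR.tr z0 p)) = g⁻¹ (LyR.tr z0 p) := by
      conv_rhs => rw [← hp]
      simp only [Perm.mul_apply]
      rw [← Perm.mul_apply (LyR.tr z0) (LyR.tr z0), tz, Perm.one_apply, p_ia]
    cases e' : g⁻¹ (LyR.tr z0 p) with
    | none =>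
      rw [← i2] at e'
      exact (LyR.tr z0).injective ((g⁻¹.injective e').trans (by rw [tr_some, zz]))
    | some y =>
      rw [e', tr_some, Option.some.injEq, mul_eq_right] at e
      exact absurd e (by decide)
  have c3 : Commute (LyR.kk ^ 3) s := by
    have : Commute (LyR.kk ^ 3) (LyR.tr z0) := by
      have := kk_tr 3 z0
      rwa [show kf^[3] z0 = z0 by decide +kernel] at this
    exact hs ▸ (this.mul_right (h.comm hg h1 h2)).mul_right this
  obtain ⟨j, hj, e⟩ := h.stab' (p := s * LyR.kk * s) (mul_mem (mul_mem sX h.kk) sX)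
    (by simp only [Perm.mul_apply, n, kk_some, kf_one, n'])
    (by simp only [Perm.mul_apply, n, kk_none, n'])
  have si : s⁻¹ = s := inv_eq_of_mul_eq_one_right sq
  have e3 : LyR.kk ^ (j * 3) = LyR.kk ^ 3 := by
    rw [pow_mul, ← e]
    conv_lhs => rw [← si, si, show s * LyR.kk * s = s * LyR.kk * s⁻¹ by rw [si], conj_pow, ← c3.eq]
    rw [mul_inv_cancel_right]
  have e4 := congrArg (fun f : Perm (Option T0) => f (some z0)) e
  simp only [Perm.mul_apply, z, kk_some, kk_pow_some] at e4
  have j11 : j = 11 := by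
    have := congrArg (fun f : Perm (Option T0) => f (some u0)) e3
    simp only [kk_pow_some, Option.some.injEq] at this
    have := (by decide +kernel : ∀ j < 15, kf^[j * 3] u0 = kf^[3] u0 → j = 1 ∨ j = 6 ∨ j = 11)
      j hj this
    rcases this with rfl | rfl | rfl
    · exact absurd (fix _ e4) (by decide +kernel)
    · rw [show kf^[6] z0 = z0 by decide +kernel, ← z] at e4
      exact absurd (s.injective e4) (by decide +kernel)
    · rfl
  refine ⟨s, sX, n, sq, by rw [← j11, ← e, mul_assoc, sq, mul_one], z, fun a b ha hb => ?_⟩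
  obtain ⟨i, -, e⟩ := h.stab' (p := s * LyR.tr a⁻¹ * s * LyR.tr u0 * s * LyR.tr b)
    (mul_mem (mul_mem (mul_mem (mul_mem (mul_mem sX (h.tr _)) sX) (h.tr _)) sX) (h.tr _))
    (by simp only [Perm.mul_apply, tr_none, n, tr_some, mul_one, ha, inv_mul_cancel, n'])
    (by
      simp only [Perm.mul_apply, tr_some, mul_one]
      rw [← hb, ss, tr_some, mul_inv_cancel, n', tr_none, n])
  rw [e]
  exact (Commute.refl _).pow_left i

theorem le {Y : Subgroup (Perm (Option T0))} (h : Md65 X) (h' : Md65 Y) : X ≤ Y := by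
  obtain ⟨s, sX, Q⟩ := h.exists_s
  obtain ⟨s', sY, Q'⟩ := h'.exists_s
  obtain rfl := Q.unique Q'
  have c1 : ∀ p ∈ X, p none = none → p ∈ Y := fun p hp h1 => by
    obtain ⟨a, ha⟩ := Option.ne_none_iff_exists'.1 (show p (some 1) ≠ none from fun e =>
      absurd (p.injective (e.trans h1.symm)) (by simp))
    obtain ⟨i, e⟩ := h.stab (LyR.tr a⁻¹ * p) (mul_mem (h.tr _) hp)
      (by rw [Perm.mul_apply, h1, tr_none]) (by rw [Perm.mul_apply, ha, tr_some, inv_mul_cancel])
    exact (mul_mem_cancel_left (h'.tr a⁻¹)).1 (e ▸ pow_mem h'.kk i)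
  intro p hp
  cases e : p none with
  | none => exact c1 p hp e
  | some a =>
    exact (mul_mem_cancel_left (mul_mem sY (h'.tr a⁻¹))).1 (c1 _ (mul_mem (mul_mem sX (h.tr _)) hp)
      (by simp only [Perm.mul_apply, e, tr_some, inv_mul_cancel, Q.one]))

end Md65

end Cfsg.Agent.LyR
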