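import Cfsg.Agent.LyR.T0

/-!
# The search for the involution interchanging two points
-/

set_option autoImplicit false

namespace Cfsg.Agent.LyR

/-- Orbit number. -/
def oi (x : ℕ) : ℕ := Nat.mod (Nat.shiftRight 926045053033194635509769207215250626164753975451566084680 (Nat.mul 3 x)) 8

/-- Position in the orbit. -/
def om (x : ℕ) : ℕ := Nat.mod (Nat.shiftRight 92198454782911617679679186734078483236455758538568746977288050699238318948608 (Nat.mul 4 x)) 16

/-- The table of `κ ^ (11 m)`. -/
def kp (m y : ℕ) : ℕ := Nat.mod (Nat.shiftRight 270458640830198074322008716836260453964670715754005411069958195418555442891481258200462729134044120293856933992312030646643470279411913663918983380289075734879678105683167793878502341812773896503463918638826686724980832491626780056089087766519420144068650864315341652011081960190476671864215073870257974713258150781112724337027363787626941257730721279356270092368036814817313143616654873387672320577381042309607200985493461762490293386717109910382674873459238321024233497803974999726054427250520338595067391650499289632780937522721152256541237692403867088699769024866496513415920494663770140129910246057449753666475194036393066772938559170809861865367953354589263606987409832685353093000843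11299971769449849149780841443140265448997534041779731568449754677883723356763106786988895354682362503497220735764760469540397930578540289333617998590331183625702808645722952937920778284942091566250936621953950427940859627692077835932546689634725260771538872135291834098000912167137397737134257862964085342793156250883165754916464040877978884799575679347912623966447544436855581429950278660517274310538182171711587579524770101099781731244849249079708413425877598593936479490241788218511363854382862500253914407138778473347901448523400717512369330269443048684566241042496437931442624683932268856445486975442228675038620653859272092821138647751949156769065052004711702389767093592592774127082401129187646120341022984020344928192675519707911045941372086381200987369952159969190145751405572837556815623924367786683851623491769249324656761440154772183609555578208366300552798140308239223469574538558867778598192062668261571726787757241829660660745364827021173520991841060172568394721556086593818702934391942187425028333871881804566048647755965669440 (Nat.add (Nat.mul 384 m) (Nat.mul 6 y))) 64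

/-- Selection. -/
def sel (a b c d i : ℕ) : ℕ :=
  cond (Nat.beq i 0) 16 (cond (Nat.beq i 1) a (cond (Nat.beq i 2) b (cond (Nat.beq i 3) c d)))

/-- The candidate with given values on orbit representatives. -/
def cand (a b c d p : ℕ) : ℕ :=
  cond (Nat.beq p 64) 0 (cond (Nat.beq p 0) 64 (kp (om p) (sel a b c d (oi p))))

/-- Translation on codes. -/
def trN (x p : ℕ) : ℕ := cond (Nat.beq p 64) 64 (mu x p)

/-- `κ` on codes. -/
def kN (p : ℕ) : ℕ := cond (Nat.beq p 64) 64 (ka p)

/-- The word which fixes two points. -/
def wN (s : ℕ → ℕ) (a b p : ℕ) : ℕ :=
  s (trN (mu a (mu a a)) (s (trN 1 (s (trN b p)))))

/-- Pairwise consistency. -/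
def pc (c y j y' : ℕ) : Bool := !Nat.beq (oi y) j || Nat.beq (kp (om y) y') c

/-- The search. -/
def srch : Bool :=
  allN 64 fun a => !(pc 1 a 0 16 && pc 1 a 1 a) ||
  allN 64 fun b => !(pc 1 a 2 b && (pc 17 b 0 16 && (pc 17 b 1 a && pc 17 b 2 b))) ||
  allN 64 fun c => !(pc 1 a 3 c && (pc 17 b 3 c && (pc 33 c 0 16 && (pc 33 c 1 a &&
    (pc 33 c 2 b && pc 33 c 3 c))))) ||
  allN 64 fun d => !(pc 1 a 4 d && (pc 17 b 4 d && (pc 33 c 4 d &&
    Nat.beq (cand a b c d d) 49))) ||
  (!(allN 64 fun p => Nat.beq (wN (cand a b c d) a b (kN p)) (kN (wN (cand a b c d) a b p))) ||
    (Nat.beq a 25 && (Nat.beq b 62 && (Nat.beq c 29 && Nat.beq d 43))))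

theorem srch_ok : srch = true := by decide +kernel

end Cfsg.Agent.LyR
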